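import Cfsg.Agent.H46.F4Two.CoverData

/-!
# Further checks for the double cover (generated file)
-/

set_option autoImplicit false
set_option maxRecDepth 100000

namespace Cfsg.Agent.H46.F4Two

/-- All matrices are packed correctly and square to one. -/
theorem chk_basic : matRoots.all (fun r => chkWf (rootMat r) && (fmul (rootMat r) (rootMat r) == idP)
    && (fmul (weylMat r) (weylMat r) == idP)) = true := by decide +kernel

/-- Roots obtained by reflecting. -/
def exprs : List (ℕ × ℕ × ℕ) := [(13,33,20), (17,27,22), (19,25,20), (21,25,23), (26,25,24), (28,25,27), (30,27,25), (34,33,27)]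

/-- The reflected roots. -/
theorem chk_exprs : exprs.all (fun x => fmul (fmul (weylMat x.2.1) (rootMat x.2.2)) (weylMat x.2.1) == rootMat x.1) = true := by
  decide +kernel

/-- Fundamental root elements as commutators. -/
def comms : List (ℕ × ℕ × ℕ) := [(33,20,34), (27,14,34), (25,23,26), (24,22,26), (14,13,27), (20,13,33), (22,21,24), (23,21,25)]

/-- The commutator expressions. -/
theorem chk_comms : comms.all (fun x =>
    fmul (fmul (rootMat x.2.2) (rootMat x.2.1)) (fmul (rootMat x.2.2) (rootMat x.2.1)) == rootMat x.1) = true := by
  decide +kernel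

end Cfsg.Agent.H46.F4Two
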