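import Cfsg.Agent.H46.F4Two.CoverData

/-!
# Relations of the double cover, part 1 (generated file)
-/

set_option autoImplicit false
set_option maxRecDepth 100000

namespace Cfsg.Agent.H46.F4Two

/-- Rules. -/
def rules1 : List (ℕ × ℕ × List ℕ) := [(13,14,[]), (13,20,[]), (13,27,[14]), (13,33,[20]), (14,13,[]), (14,20,[13]), (14,22,[]), (14,23,[]), (14,24,[]), (14,25,[]), (14,27,[]), (14,34,[27]), (17,19,[]), (17,20,[]), (17,22,[]), (17,25,[]), (17,27,[19,22]), (17,28,[20,25]), (19,17,[]), (19,20,[]), (19,22,[]), (19,25,[20,17]), (19,27,[]), (19,30,[27,22]), (20,13,[]), (20,14,[13]), (20,17,[]), (20,19,[]), (20,22,[19,17]), (20,23,[])]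

/-- The rules hold. -/
theorem chk_rules1 : rules1.all chkRule = true := by decide +kernel

end Cfsg.Agent.H46.F4Two
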