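import Cfsg.Agent.H46.F4Two.CoverData

/-!
# Relations of the double cover, part 2 (generated file)
-/

set_option autoImplicit false
set_option maxRecDepth 100000

namespace Cfsg.Agent.H46.F4Two

/-- Rules. -/
def rules2 : List (ℕ × ℕ × List ℕ) := [(20,24,[]), (20,25,[]), (20,28,[]), (20,30,[28,25]), (20,33,[]), (20,34,[33]), (21,22,[]), (21,23,[]), (21,24,[22]), (21,25,[23]), (22,14,[]), (22,17,[]), (22,19,[]), (22,20,[19,17]), (22,21,[]), (22,23,[21]), (22,24,[]), (22,26,[24]), (22,27,[]), (22,28,[27,30]), (22,30,[]), (22,33,[]), (23,14,[]), (23,20,[]), (23,21,[]), (23,22,[21]), (23,25,[]), (23,26,[25]), (23,27,[]), (23,33,[])]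

/-- The rules hold. -/
theorem chk_rules2 : rules2.all chkRule = true := by decide +kernel

end Cfsg.Agent.H46.F4Two
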