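import Cfsg.Agent.H46.F4Two.CoverData

/-!
# Relations of the double cover, part 3 (generated file)
-/

set_option autoImplicit false
set_option maxRecDepth 100000

namespace Cfsg.Agent.H46.F4Two

/-- Rules. -/
def rules3 : List (ℕ × ℕ × List ℕ) := [(24,14,[]), (24,20,[]), (24,21,[22]), (24,22,[]), (24,25,[26]), (24,26,[]), (24,27,[]), (24,33,[]), (25,14,[]), (25,17,[]), (25,19,[20,17]), (25,20,[]), (25,21,[23]), (25,23,[]), (25,24,[26]), (25,26,[]), (25,27,[28,30]), (25,28,[]), (25,30,[]), (25,33,[]), (26,22,[24]), (26,23,[25]), (26,24,[]), (26,25,[]), (27,13,[14]), (27,14,[]), (27,17,[19,22]), (27,19,[]), (27,22,[]), (27,23,[])]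

/-- The rules hold. -/
theorem chk_rules3 : rules3.all chkRule = true := by decide +kernel

end Cfsg.Agent.H46.F4Two
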