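import Cfsg.Agent.H46.F4Two.CoverData

/-!
# Relations of the double cover, part 4 (generated file)
-/

set_option autoImplicit false
set_option maxRecDepth 100000

namespace Cfsg.Agent.H46.F4Two

/-- Rules. -/
def rules4 : List (ℕ × ℕ × List ℕ) := [(27,24,[]), (27,25,[28,30]), (27,28,[]), (27,30,[]), (27,33,[34]), (27,34,[]), (28,17,[20,25]), (28,20,[]), (28,22,[27,30]), (28,25,[]), (28,27,[]), (28,30,[]), (30,19,[27,22]), (30,20,[28,25]), (30,22,[]), (30,25,[]), (30,27,[]), (30,28,[]), (33,13,[20]), (33,20,[]), (33,22,[]), (33,23,[]), (33,24,[]), (33,25,[]), (33,27,[34]), (33,34,[]), (34,14,[27]), (34,20,[33]), (34,27,[]), (34,33,[])]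

/-- The rules hold. -/
theorem chk_rules4 : rules4.all chkRule = true := by decide +kernel

end Cfsg.Agent.H46.F4Two
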