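import Cfsg.Agent.H46.F4Two.Upper
import Cfsg.Agent.H46.F4Two.CoverMisc
import Cfsg.Agent.H46.F4Two.CoverRules1
import Cfsg.Agent.H46.F4Two.CoverRules2
import Cfsg.Agent.H46.F4Two.CoverRules3
import Cfsg.Agent.H46.F4Two.CoverRules4
import Cfsg.Agent.H48.CurtisTits.Main
import Cfsg.Agent.H48.CurtisTits.TypeF4
import Cfsg.Agent.H46.Simple
import Cfsg.Agent.H82.Mult

/-!
# The double cover of F4(2) and the multiplier

Matrices of size 52 over the field with eleven elements satisfy the Curtis-Tits relations up to sign.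
-/

set_option autoImplicit false
set_option maxRecDepth 100000

namespace Cfsg.Agent.H46.F4Two

open Cfsg.Lie Cfsg.Agent.H46
open Cfsg.Agent.H48.CT (inS inSub inRankTwoSub_iff inS_iff_exists)
open scoped MatrixGroups commutatorElement

/-- The ambient group of the cover. -/
abbrev Amb : Type := GL (Fin dim) (ZMod 11)

attribute [local irreducible] rootMat fmul entry toM idP negP

theorem basic_spec {r : ℕ} (hr : r ∈ matRoots) :
    Wf (rootMat r) ∧ fmul (rootMat r) (rootMat r) = idP ∧ fmul (weylMat r) (weylMat r) = idP := by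
  have h := chk_basic
  simp only [List.all_eq_true, Bool.and_eq_true, beq_iff_eq] at h
  exact ⟨wf_of_chk (h r hr).1.1, (h r hr).1.2, (h r hr).2⟩

theorem wf_rootMat (r : ℕ) : Wf (rootMat r) := by
  by_cases hr : r ∈ matRoots
  · exact (basic_spec hr).1
  · have : rootMat r = idP := by
      unfold rootMat
      split <;> first | rfl | simp [matRoots] at hr
    rw [this]
    exact wf_of_chk chk_idP.1

theorem toM_sq (r : ℕ) : toM (rootMat r) * toM (rootMat r) = 1 := by
  rw [← toM_fmul (wf_rootMat r) (wf_rootMat r)]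
  by_cases hr : r ∈ matRoots
  · rw [(basic_spec hr).2.1, toM_idP.1]
  · have : rootMat r = idP := by
      unfold rootMat
      split <;> first | rfl | simp [matRoots] at hr
    rw [this, toM_fmul (wf_of_chk chk_idP.1) (wf_of_chk chk_idP.1), toM_idP.1, mul_one]

/-- The root element of the cover. -/
def rootU (r : ℕ) : Amb := ⟨toM (rootMat r), toM (rootMat r), toM_sq r, toM_sq r⟩

/-- The element minus one. -/
def negU : Amb := -1

theorem rootU_sq (r : ℕ) : rootU r * rootU r = 1 := Units.ext (toM_sq r)

theorem rootU_inv (r : ℕ) : (rootU r)⁻¹ = rootU r := rfl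

theorem rootU_of_not_mem {r : ℕ} (hr : r ∉ matRoots) : rootU r = 1 := by
  refine Units.ext ?_
  have : rootMat r = idP := by
    unfold rootMat
    split <;> first | rfl | simp [matRoots] at hr
  show toM (rootMat r) = 1
  rw [this, toM_idP.1]

theorem negU_ne : negU ≠ 1 := by
  intro h
  have h2 := congrArg (fun u : Amb => (u : Matrix (Fin dim) (Fin dim) (ZMod 11)) ⟨0, by norm_num⟩ ⟨0, by norm_num⟩) h
  simp only [negU, Units.val_neg, Units.val_one, Matrix.neg_apply, Matrix.one_apply_eq] at h2
  exact absurd h2 (by decide)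

theorem negU_mem_center : negU ∈ Subgroup.center Amb :=
  Subgroup.mem_center_iff.2 fun g => Units.ext (by simp [negU])

/-- All rules. -/
def allRules : List (ℕ × ℕ × List ℕ) := rules1 ++ rules2 ++ rules3 ++ rules4

theorem rule_spec {r s : ℕ} {w : List ℕ} (h : (r, s, w) ∈ allRules) :
    rootU s * rootU r = rootU r * rootU s * (w.map rootU).prod * (if w.length = 2 then negU else 1) := by
  have hall : allRules.all chkRule = true := by
    rw [allRules, List.all_append, List.all_append, List.all_append, chk_rules1, chk_rules2, chk_rules3,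
      chk_rules4]
    rfl
  have hc := List.all_eq_true.1 hall _ h
  simp only [chkRule, ruleRhs, beq_iff_eq] at hc
  have hfold : ∀ (w : List ℕ) (p : ℕ) (u : Amb), Wf p → toM p = (u : Matrix _ _ _) →
      Wf (w.foldl (fun p k => fmul p (rootMat k)) p) ∧
        toM (w.foldl (fun p k => fmul p (rootMat k)) p) = ((u * (w.map rootU).prod : Amb) : Matrix _ _ _) := by
    intro w
    induction w with
    | nil => intro p u hp hu; exact ⟨hp, by simpa using hu⟩
    | cons k w ih =>
      intro p u hp hu
      have := ih (fmul p (rootMat k)) (u * rootU k) (wf_fmul hp (wf_rootMat k))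
        (by rw [toM_fmul hp (wf_rootMat k), hu, Units.val_mul]; rfl)
      simpa [mul_assoc] using this
  obtain ⟨hwf, he⟩ := hfold w (fmul (rootMat r) (rootMat s)) (rootU r * rootU s)
    (wf_fmul (wf_rootMat r) (wf_rootMat s)) (by rw [toM_fmul (wf_rootMat r) (wf_rootMat s)]; rfl)
  refine Units.ext ?_
  have e1 : ((rootU s * rootU r : Amb) : Matrix _ _ _) = toM (fmul (rootMat s) (rootMat r)) := by
    rw [toM_fmul (wf_rootMat s) (wf_rootMat r), Units.val_mul]; rfl
  rw [e1, hc]
  by_cases hl : w.length = 2
  · rw [if_pos hl, if_pos hl, toM_fmul hwf (wf_of_chk chk_idP.2.1), he, toM_idP.2, Units.val_mul]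
    simp [negU]
  · rw [if_neg hl, if_neg hl, he, mul_one]

theorem chk_domain : (((List.range 48).all fun r => inS chevF4 goodF4.tab r == matRoots.contains r) &&
    ((List.range 4).all fun i => (List.range 4).all fun j => (List.range 48).all fun r =>
      !inSub chevF4 goodF4.tab i j r || (List.range 48).all fun s =>
        !inSub chevF4 goodF4.tab i j s || !okPair r s || allRules.contains (r, s, wTab r s)) &&
    (matRoots.all fun r => Nat.blt r 48 && matRoots.contains (47 - r))) = true := by
  decide +kernel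

/-- The fundamental roots and their negatives. -/
def genRoots : List ℕ := [33, 27, 25, 24, 14, 20, 22, 23]

theorem chk_gen : ((matRoots.all fun r => genRoots.contains r || exprs.any fun x => x.1 == r &&
      genRoots.contains x.2.1 && genRoots.contains (47 - x.2.1) && genRoots.contains x.2.2) &&
    (genRoots.all fun r => comms.any fun x => x.1 == r &&
      matRoots.contains x.2.1 && matRoots.contains x.2.2)) = true := by
  decide +kernel

theorem chk_negRule : allRules.any (fun x => x.2.2.length == 2 &&
    (x.2.2.all matRoots.contains) && matRoots.contains x.1 && matRoots.contains x.2.1) = true := by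
  decide +kernel

/-- The cover as a group of matrices. -/
def coverG : Subgroup Amb := Subgroup.closure {g | ∃ r ∈ genRoots, g = rootU r}

theorem rootU_mem {r : ℕ} (hr : r ∈ matRoots) : rootU r ∈ coverG := by
  have hgen : ∀ p ∈ genRoots, rootU p ∈ coverG := fun p hp => Subgroup.subset_closure ⟨p, hp, rfl⟩
  have h := chk_gen
  simp only [Bool.and_eq_true, List.all_eq_true, Bool.or_eq_true, List.any_eq_true, beq_iff_eq,
    List.contains_iff_mem] at h
  rcases h.1 r hr with h1 | ⟨x, hx, ⟨⟨rfl, h2⟩, h3⟩, h4⟩
  · exact hgen r h1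
  · have he := chk_exprs
    simp only [List.all_eq_true, beq_iff_eq] at he
    have hw : Wf (weylMat x.2.1) := wf_fmul (wf_fmul (wf_rootMat _) (wf_rootMat _)) (wf_rootMat _)
    set n := rootU x.2.1 * rootU (47 - x.2.1) * rootU x.2.1
    have hn : toM (weylMat x.2.1) = (n : Matrix _ _ _) := by
      rw [weylMat, toM_fmul (wf_fmul (wf_rootMat _) (wf_rootMat _)) (wf_rootMat _),
        toM_fmul (wf_rootMat _) (wf_rootMat _)]
      rfl
    have : rootU x.1 = n * rootU x.2.2 * n := Units.ext (by
      show toM (rootMat x.1) = _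
      rw [← he x hx, toM_fmul (wf_fmul hw (wf_rootMat _)) hw, toM_fmul hw (wf_rootMat _), hn]
      rfl)
    rw [this]
    have hnm : n ∈ coverG := mul_mem (mul_mem (hgen _ h2) (hgen _ h3)) (hgen _ h2)
    exact mul_mem (mul_mem hnm (hgen _ h4)) hnm

theorem negU_mem : negU ∈ coverG := by
  have h := chk_negRule
  simp only [List.any_eq_true, Bool.and_eq_true, beq_iff_eq, List.all_eq_true, List.contains_iff_mem] at h
  obtain ⟨⟨r, s, w⟩, hm, ⟨⟨hl, hw⟩, hr⟩, hs⟩ := h
  have e := rule_spec hm
  rw [if_pos hl] at e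
  have : negU = (rootU r * rootU s * (w.map rootU).prod)⁻¹ * (rootU s * rootU r) := by
    rw [e, inv_mul_cancel_left]
  rw [this]
  refine mul_mem (inv_mem (mul_mem (mul_mem (rootU_mem hr) (rootU_mem hs)) (Subgroup.list_prod_mem _ ?_)))
    (mul_mem (rootU_mem hs) (rootU_mem hr))
  intro y hy
  obtain ⟨k, hk, rfl⟩ := List.mem_map.1 hy
  exact rootU_mem (hw k hk)

theorem coverG_perfect : coverG ≤ ⁅coverG, coverG⁆ := by
  refine (Subgroup.closure_le _).2 ?_
  rintro _ ⟨k, hk, rfl⟩
  have h := chk_gen
  simp only [Bool.and_eq_true, List.all_eq_true, List.any_eq_true, beq_iff_eq, List.contains_iff_mem] at h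
  obtain ⟨x, hx, ⟨rfl, h2⟩, h3⟩ := h.2 k hk
  have hc := chk_comms
  simp only [List.all_eq_true, beq_iff_eq] at hc
  have hw := wf_fmul (wf_rootMat x.2.2) (wf_rootMat x.2.1)
  have e : rootU x.1 = ⁅rootU x.2.2, rootU x.2.1⁆ := Units.ext (by
    show toM (rootMat x.1) = _
    rw [← hc x hx, toM_fmul hw hw, toM_fmul (wf_rootMat _) (wf_rootMat _), commutatorElement_def,
      rootU_inv, rootU_inv, Units.val_mul, Units.val_mul, Units.val_mul, mul_assoc (_ * _)]
    rfl)
  rw [SetLike.mem_coe, e]
  exact Subgroup.commutator_mem_commutator (rootU_mem h3) (rootU_mem h2)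

theorem chk_nontrivial : entry (rootMat 34) ⟨0, by norm_num⟩ ⟨0, by norm_num⟩ ≠ 1 ∨
    ∃ i j : Fin dim, i ≠ j ∧ 0 < entry (rootMat 34) i j ∧ entry (rootMat 34) i j < 11 := by
  decide +kernel

theorem rootU_34_ne : rootU 34 ≠ 1 := by
  intro h
  have hm : toM (rootMat 34) = (1 : Matrix (Fin dim) (Fin dim) (ZMod 11)) :=
    (show ((rootU 34 : Amb) : Matrix (Fin dim) (Fin dim) (ZMod 11)) = toM (rootMat 34) from rfl).symm.trans
      ((congrArg Units.val h).trans Units.val_one)
  have h' : ∀ i j, (toM (rootMat 34)) i j = (1 : Matrix (Fin dim) (Fin dim) (ZMod 11)) i j := fun i j => by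
    rw [hm]
  rcases chk_nontrivial with hne | ⟨i, j, hij, h0, h11⟩
  · have := h' ⟨0, by norm_num⟩ ⟨0, by norm_num⟩
    rw [Matrix.one_apply_eq, toM, Matrix.of_apply] at this
    refine hne ?_
    have hle := (wf_rootMat 34).le ⟨0, by norm_num⟩ ⟨0, by norm_num⟩
    haveI fact11 : Fact (1 < 11) := ⟨by norm_num⟩
    have h1 := congrArg ZMod.val this
    rwa [ZMod.val_natCast, Nat.mod_eq_of_lt (by omega), ZMod.val_one] at h1
  · have := h' i j
    rw [Matrix.one_apply_ne hij, toM, Matrix.of_apply, ZMod.natCast_eq_zero_iff] at this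
    exact absurd (Nat.le_of_dvd h0 this) (by omega)

/-- The quotient by scalars. -/
abbrev PAmb : Type := Amb ⧸ Subgroup.center Amb

/-- The projection. -/
def toPAmb : Amb →* PAmb := QuotientGroup.mk' (Subgroup.center Amb)

theorem toPAmb_negU : toPAmb negU = 1 := (QuotientGroup.eq_one_iff _).2 negU_mem_center

section Main

variable {F : Type*} [Field F] [Fintype F] (hF : Fintype.card F = 2)

include hF

open Classical in
/-- The images of the generators. -/
noncomputable def pImg (p : Fin chevF4.nroots × F) : PAmb := if p.2 = 0 then 1 else toPAmb (rootU p.1)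

omit [Fintype F] hF in
theorem nroots_eq : chevF4.nroots = 48 := by decide +kernel

omit [Fintype F] hF in
theorem pImg_stX {r : ℕ} (hr : r < chevF4.nroots) (t : F) :
    FreeGroup.lift (pImg (F := F)) (chevF4.stX r t) = pImg (⟨r, hr⟩, t) := by
  simp [ChevalleyDatum.stX, hr]

theorem pImg_rels : ∀ g ∈ chevF4.curtisTitsRels F, FreeGroup.lift (pImg (F := F)) g = 1 := by
  classical
  have hdom := chk_domain
  simp only [Bool.and_eq_true, List.all_eq_true, List.mem_range, beq_iff_eq, Bool.or_eq_true,
    Bool.not_eq_true', List.contains_iff_mem, Nat.blt_eq] at hdom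
  obtain ⟨⟨hinS, hrules⟩, hneg⟩ := hdom
  have hmem : ∀ {i j r : ℕ}, chevF4.InRankTwoSub i j r → r < 48 ∧ r ∈ matRoots := by
    intro i j r h
    have hr : r < 48 := nroots_eq ▸ h.1
    refine ⟨hr, ?_⟩
    have := hinS r hr
    rw [(inS_iff_exists goodF4 h.1).2 ⟨i, j, h⟩] at this
    simpa using this.symm
  rintro g (((⟨r, t, hr, hn, rfl⟩ | ⟨i, j, r, t, u, hij, rfl⟩) | ⟨i, j, r, s, t, u, h1, h2, hne, hneg', rfl⟩) |
    ⟨i, j, r, t, u, hij, ht, hu, rfl⟩)
  · have h48 : r < 48 := nroots_eq ▸ hr
    have hnm : r ∉ matRoots := by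
      intro hm
      have := hinS r h48
      rw [List.contains_iff_mem.2 hm] at this
      obtain ⟨i, j, h⟩ := (inS_iff_exists goodF4 hr).1 this
      exact hn i j h
    rw [pImg_stX hr]
    simp [pImg, rootU_of_not_mem hnm]
  · rw [map_mul, map_mul, map_inv, pImg_stX hij.1, pImg_stX hij.1, pImg_stX hij.1]
    simp only [pImg]
    rcases eq_zero_or_one hF t with rfl | rfl
    · simp
    rcases eq_zero_or_one hF u with rfl | rfl
    · simp
    rw [two_eq_zero hF, if_neg one_ne_zero, if_pos rfl, inv_one, mul_one, ← map_mul, rootU_sq, map_one]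
  · obtain ⟨hr, hi, hj, e1⟩ := (inRankTwoSub_iff goodF4).1 h1
    obtain ⟨hs, -, -, e2⟩ := (inRankTwoSub_iff goodF4).1 h2
    have hr48 : r < 48 := nroots_eq ▸ hr
    have hs48 : s < 48 := nroots_eq ▸ hs
    have hi4 : i < 4 := hi.trans_eq (by decide +kernel)
    have hj4 : j < 4 := hj.trans_eq (by decide +kernel)
    have h47 : r + s ≠ 47 := fun e => hneg' (by rw [neg_spec hr48]; omega)
    obtain ⟨hw, hij', hwlt⟩ := word_spec hr48 hs48 (Ne.symm hne) h47
    have hok : okPair r s = true := by simp [okPair, Ne.symm hne, h47]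
    have hmemR : (r, s, wTab r s) ∈ allRules := by
      rcases hrules i hi4 j hj4 r hr48 with h | h
      · rw [e1] at h; exact absurd h (by simp)
      · rcases h s hs48 with (h | h) | h
        · rw [e2] at h; exact absurd h (by simp)
        · rw [hok] at h; exact absurd h (by simp)
        · exact h
    let f : ℕ → F → PAmb := fun k v => if v = 0 then 1 else toPAmb (rootU k)
    have hword : FreeGroup.lift (pImg (F := F)) (chevF4.stWord (chevF4.commWord F r s t u)) =
        ((chevF4.commWord F r s t u).map fun x => f x.1 x.2).prod := by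
      rw [ChevalleyDatum.stWord, map_list_prod, List.map_map]
      refine congrArg List.prod (List.map_congr_left fun p hp => ?_)
      rw [Function.comp_apply, pImg_stX (Cfsg.Agent.H70.Steinberg.commWord_lt goodF4 hr hs t u p hp)]
      rfl
    simp only [map_mul, map_inv, pImg_stX hr, pImg_stX hs, hword]
    by_cases htu : t = 0 ∨ u = 0
    · have hone : ((chevF4.commWord F r s t u).map fun x => f x.1 x.2).prod = 1 := by
        refine List.prod_eq_one fun y hy => ?_
        simp only [ChevalleyDatum.commWord, List.map_map, List.mem_map, Function.comp_apply] at hy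
        obtain ⟨c, hc, rfl⟩ := hy
        have := hij' c hc
        rcases htu with rfl | rfl <;> simp [this.1, this.2, f]
      rw [hone]
      rcases htu with rfl | rfl <;> simp only [pImg, if_pos] <;> split_ifs <;> simp
    · simp only [not_or] at htu
      rw [(eq_zero_or_one hF t).resolve_left htu.1, (eq_zero_or_one hF u).resolve_left htu.2,
        prod_commWord hF f (fun k => by simp [f]), ← hw]
      have e := congrArg toPAmb (rule_spec hmemR)
      rw [map_mul, map_mul, map_mul, map_mul, map_list_prod, List.map_map] at e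
      have hz : toPAmb (if (wTab r s).length = 2 then negU else 1) = 1 := by
        split_ifs
        · exact toPAmb_negU
        · exact map_one _
      rw [hz, mul_one] at e
      have hp : ((wTab r s).map fun k => f k 1) = (wTab r s).map (toPAmb ∘ rootU) :=
        List.map_congr_left fun k _ => by simp [f]
      simp only [pImg, if_neg (one_ne_zero (α := F))]
      rw [hp, mul_assoc (_ * _) (toPAmb (rootU s)) (toPAmb (rootU r)), e]
      group
  · obtain ⟨h48, hm⟩ := hmem hij
    have hn := (hneg r hm).2
    have hw : toPAmb (rootU r * rootU (47 - r) * rootU r) * toPAmb (rootU r * rootU (47 - r) * rootU r) = 1 := by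
      rw [← map_mul]
      have hwf : Wf (weylMat r) := wf_fmul (wf_fmul (wf_rootMat _) (wf_rootMat _)) (wf_rootMat _)
      have : (rootU r * rootU (47 - r) * rootU r) * (rootU r * rootU (47 - r) * rootU r) = 1 := Units.ext (by
        have e := congrArg toM (basic_spec hm).2.2
        rw [toM_fmul hwf hwf, toM_idP.1, weylMat, toM_fmul (wf_fmul (wf_rootMat _) (wf_rootMat _)) (wf_rootMat _),
          toM_fmul (wf_rootMat _) (wf_rootMat _)] at e
        exact e)
      rw [this, map_one]
    have hH : FreeGroup.lift (pImg (F := F)) (chevF4.stH r (1 : F)) = 1 := by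
      have hm1 : (-1 : F) = 1 := by linear_combination -(two_eq_zero hF)
      have hnr : chevF4.neg r < chevF4.nroots := by
        rw [neg_spec h48, nroots_eq]; omega
      simp only [ChevalleyDatum.stH, ChevalleyDatum.stWord, ChevalleyDatum.hWord, ChevalleyDatum.nWord,
        inv_one, hm1, List.map_append, List.map_cons, List.map_nil, List.prod_append, List.prod_cons,
        List.prod_nil, mul_one, map_mul, pImg_stX hij.1, pImg_stX hnr]
      simp only [pImg, if_neg (one_ne_zero (α := F)), neg_spec h48]
      simpa only [map_mul, mul_assoc] using hw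
    rw [(eq_zero_or_one hF t).resolve_left ht, (eq_zero_or_one hF u).resolve_left hu, mul_one, map_mul, map_mul,
      map_inv, hH]
    simp

/-- The Schur multiplier of F4(2) is cyclic of order two. -/
theorem hasCyclicSchurMultiplier_two : Cfsg.HasCyclicSchurMultiplier ↥(chevF4.group F) 2 := by
  classical
  have hD : chevF4 ∈ [chevG2, chevB2, chevD4, chevF4, chevE6, chevE7, chevE8] := by simp
  set P := Cfsg.Agent.H70.Steinberg.groupPres goodF4 (F := F) with hP
  have hinj : Function.Injective P.θ := by
    rw [← MonoidHom.ker_eq_bot_iff, P.ker_eq_center (Cfsg.Agent.H70.Steinberg.cert_of_mem hD)]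
    exact Cfsg.Agent.H70.Steinberg.center_eq_bot goodF4 (Cfsg.Agent.H70.Steinberg.cert_of_mem hD) _
      Cfsg.Agent.H70.Steinberg.chkInv_small.2
  have hperfG : commutator ↥(chevF4.group F) = ⊤ := by
    rw [← Cfsg.Agent.H82.map_commutator_of_surjective P.θ_surjective,
      Cfsg.Agent.H70.Steinberg.perfect_of_mem P hD fun h => absurd h (by simp [chevF4, chevB2, chevG2]),
      Subgroup.map_top_of_surjective _ P.θ_surjective]
  haveI hsimple : IsSimpleGroup ↥(chevF4.group F) :=
    (goodF4.isSimpleGroup_group (by decide +kernel) chkConn_all.2.2.2.1 hperfG).1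
  obtain ⟨e, he⟩ := Cfsg.Agent.H48.CT.curtis_tits (K := F) goodF4 Cfsg.Agent.H48.CT.certF4
  let φ : chevF4.CurtisTitsGroup F →* PAmb := PresentedGroup.toGroup (pImg_rels hF)
  let θe : chevF4.SteinbergGroup F ≃* ↥(chevF4.group F) := MulEquiv.ofBijective P.θ ⟨hinj, P.θ_surjective⟩
  let ψ : ↥(chevF4.group F) →* PAmb := φ.comp (e.symm.toMonoidHom.comp θe.symm.toMonoidHom)
  have hψX : ∀ (r : ℕ) (t : F), (∃ i j, chevF4.InRankTwoSub i j r) → ψ (θe (chevF4.stGen F r t)) =
      FreeGroup.lift (pImg (F := F)) (chevF4.stX r t) := by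
    rintro r t ⟨i, j, h⟩
    show φ (e.symm (θe.symm (θe (chevF4.stGen F r t)))) = _
    rw [MulEquiv.symm_apply_apply, ← he i j r t h, MulEquiv.symm_apply_apply]
    rfl
  have hin : ∀ r ∈ matRoots, ∃ i j, chevF4.InRankTwoSub i j r := by
    intro r hr
    have hdom := chk_domain
    simp only [Bool.and_eq_true, List.all_eq_true, List.mem_range, beq_iff_eq, Nat.blt_eq] at hdom
    have h48 := (hdom.2 r hr).1
    refine (inS_iff_exists goodF4 (by rw [nroots_eq]; exact h48)).1 ?_
    rw [hdom.1.1 r h48]
    exact List.contains_iff_mem.2 hr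
  have hψroot : ∀ r ∈ matRoots, toPAmb (rootU r) ∈ ψ.range := by
    intro r hr
    obtain ⟨i, j, h⟩ := hin r hr
    refine ⟨θe (chevF4.stGen F r 1), ?_⟩
    rw [hψX r 1 ⟨i, j, h⟩, pImg_stX h.1]
    simp [pImg]
  have hψinj : Function.Injective ψ := by
    rcases hsimple.eq_bot_or_eq_top_of_normal ψ.ker inferInstance with h | h
    · exact (MonoidHom.ker_eq_bot_iff _).1 h
    · exfalso
      have hcen : ∀ r ∈ matRoots, rootU r ∈ Subgroup.center Amb := fun r hr => by
        obtain ⟨g, hg⟩ := hψroot r hr
        have : g ∈ ψ.ker := h ▸ Subgroup.mem_top g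
        rw [MonoidHom.mem_ker.1 this] at hg
        exact (QuotientGroup.eq_one_iff _).1 hg.symm
      have hr := rule_spec (r := 20) (s := 34) (w := [33]) (by decide +kernel)
      rw [(Subgroup.mem_center_iff.1 (hcen 20 (by decide)) (rootU 34)), if_neg (by decide), mul_one,
        List.map_singleton, List.prod_singleton, left_eq_mul] at hr
      have hr34 := rule_spec (r := 27) (s := 33) (w := [34]) (by decide +kernel)
      rw [(Subgroup.mem_center_iff.1 (hcen 27 (by decide)) (rootU 33)), if_neg (by decide), mul_one,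
        List.map_singleton, List.prod_singleton, left_eq_mul] at hr34
      exact rootU_34_ne hr34
  let π : coverG →* PAmb := toPAmb.comp coverG.subtype
  have hπle : ∀ x, π x ∈ ψ.range := by
    rintro ⟨x, hx⟩
    show toPAmb x ∈ ψ.range
    have hle : coverG ≤ ψ.range.comap toPAmb := (Subgroup.closure_le _).2 (by
      rintro _ ⟨r, hr, rfl⟩
      exact hψroot r (List.mem_of_elem_eq_true (by revert r; decide)))
    exact hle hx
  let σ : coverG →* ↥(chevF4.group F) :=
    (MonoidHom.ofInjective hψinj).symm.toMonoidHom.comp (π.codRestrict ψ.range hπle)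
  have hσψ : ∀ x, ψ (σ x) = π x := fun x =>
    congrArg Subtype.val ((MonoidHom.ofInjective hψinj).apply_symm_apply ⟨π x, hπle x⟩)
  have hker : ∀ x : coverG, x ∈ σ.ker ↔ (x : Amb) ∈ Subgroup.center Amb := by
    intro x
    rw [MonoidHom.mem_ker, ← hψinj.eq_iff, hσψ, map_one]
    exact QuotientGroup.eq_one_iff _
  have hsurj : Function.Surjective σ := by
    rw [← MonoidHom.range_eq_top, eq_top_iff, ← P.θ.range_eq_top.2 P.θ_surjective]
    have hgen : ⊤ = (Subgroup.closure {g | ∃ r ∈ matRoots, ∃ t : F, g = chevF4.stGen F r t} :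
        Subgroup (chevF4.SteinbergGroup F)) := by
      rw [eq_comm, eq_top_iff, ← MonoidHom.range_eq_top.2 (show Function.Surjective e.toMonoidHom from e.surjective), MonoidHom.range_eq_map,
        ← PresentedGroup.closure_range_of (chevF4.curtisTitsRels F), MonoidHom.map_closure, Subgroup.closure_le]
      rintro _ ⟨_, ⟨⟨r, t⟩, rfl⟩, rfl⟩
      have hof : (PresentedGroup.of (r, t) : chevF4.CurtisTitsGroup F) =
          PresentedGroup.mk (chevF4.curtisTitsRels F) (chevF4.stX r t) := by
        simp [ChevalleyDatum.stX, PresentedGroup.of]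
      by_cases h : ∃ i j, chevF4.InRankTwoSub i j r
      · obtain ⟨i, j, h⟩ := h
        rw [hof]
        refine Subgroup.subset_closure ⟨r, ?_, t, he i j r t h⟩
        have hdom := chk_domain
        simp only [Bool.and_eq_true, List.all_eq_true, List.mem_range, beq_iff_eq] at hdom
        have := hdom.1.1 r.1 (nroots_eq ▸ r.2)
        rw [(inS_iff_exists goodF4 r.2).2 ⟨i, j, h⟩] at this
        exact List.contains_iff_mem.1 this.symm
      · push Not at h
        rw [hof, PresentedGroup.one_of_mem (Or.inl (Or.inl (Or.inl ⟨r, t, r.2, h, rfl⟩))), map_one]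
        exact one_mem _
    rw [MonoidHom.range_eq_map, hgen, MonoidHom.map_closure, Subgroup.closure_le]
    rintro _ ⟨_, ⟨r, hr, t, rfl⟩, rfl⟩
    obtain ⟨i, j, h⟩ := hin r hr
    rcases eq_zero_or_one hF t with rfl | rfl
    · have : P.θ (chevF4.stGen F r 0) = 1 := by
        rw [show chevF4.stGen F r 0 = P.X r 0 from rfl, P.X_zero h.1, map_one]
      rw [this]
      exact one_mem _
    · refine ⟨⟨rootU r, rootU_mem hr⟩, hψinj ?_⟩
      rw [hσψ, show P.θ (chevF4.stGen F r 1) = θe (chevF4.stGen F r 1) from rfl, hψX r 1 ⟨i, j, h⟩,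
        pImg_stX h.1]
      simp [pImg, π]
  have hperf : commutator coverG = ⊤ := by
    refine Subgroup.map_injective (Subgroup.subtype_injective _) ?_
    rw [Subgroup.map_subtype_commutator, ← MonoidHom.range_eq_map, Subgroup.range_subtype]
    exact le_antisymm (Subgroup.commutator_le_self _) coverG_perfect
  have hstem : Cfsg.IsStemExtension σ := by
    refine ⟨hsurj, fun x hx => Subgroup.mem_center_iff.2 fun y => Subtype.ext ?_, by rw [hperf]; exact le_top⟩
    exact Subgroup.mem_center_iff.1 ((hker x).1 hx) y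
  haveI : Finite coverG := inferInstance
  have hle := stem_le hF hstem
  have hge : 2 ≤ Nat.card σ.ker := by
    haveI : Nontrivial σ.ker := ⟨⟨⟨⟨negU, negU_mem⟩, (hker _).2 negU_mem_center⟩, 1, fun h => by
      have h1 : negU = 1 := congrArg (fun x : σ.ker => ((x : coverG) : Amb)) h
      exact negU_ne h1⟩⟩
    exact Finite.one_lt_card
  haveI : Fact (Nat.Prime 2) := ⟨Nat.prime_two⟩
  exact Cfsg.Agent.H82.hasCyclicSchurMultiplier_of_card hstem (isCyclic_of_prime_card (p := 2) (by omega))
    (by omega) fun Δ _ _ τ hτ => stem_le hF hτ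

end Main

end Cfsg.Agent.H46.F4Two
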