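import Mathlib

/-!
# Packed matrices over the field with eleven elements

A matrix of size 52 is one natural number, the entry `(i, j)` in the thirty-two bit slot `52 i + j`; a product
is a sum of 52 products of natural numbers, reduced in all slots at once.
-/

set_option autoImplicit false

namespace Cfsg.Agent.H46.F4Two

/-- The slot size. -/
def slot : ℕ := 4294967296

/-- The size of the matrices. -/
abbrev dim : ℕ := 52

/-- The content of a slot. -/
def digit (N m : ℕ) : ℕ := N / slot ^ m % slot

/-- The slots at the starts of the rows. -/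
def colMask : ℕ := (List.range dim).foldl (fun a i => a + 4294967295 * 2 ^ (32 * (dim * i))) 0

/-- The slots of the first row. -/
def rowMask : ℕ := 2 ^ (32 * dim) - 1

/-- The low halves of all slots. -/
def lowMask : ℕ := (List.range (dim * dim)).foldl (fun a i => a + 65535 * 2 ^ (32 * i)) 0

/-- The column `k` of a packed matrix. -/
def colOf (N k : ℕ) : ℕ := N >>> (32 * k) &&& colMask

/-- The row `k` of a packed matrix. -/
def rowOf (N k : ℕ) : ℕ := N >>> (32 * (dim * k)) &&& rowMask

/-- The product before reduction. -/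
def rawMul (A B : ℕ) : ℕ := ((List.range dim).map fun k => colOf A k * rowOf B k).sum

/-- All slots reduced modulo eleven. -/
def redAll (N : ℕ) : ℕ := N - 11 * ((N * 5958) >>> 16 &&& lowMask)

/-- Product of packed matrices. -/
def fmul (A B : ℕ) : ℕ := redAll (rawMul A B)

/-- The packed identity. -/
def idP : ℕ := (List.range dim).foldl (fun a i => a + 2 ^ (32 * (dim * i + i))) 0

/-- The packed negative of the identity. -/
def negP : ℕ := 10 * idP

theorem slot_eq : slot = 2 ^ 32 := rfl

theorem slot_pos : 0 < slot := by norm_num [slot]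

theorem digit_shift (N m k : ℕ) : digit (N >>> (32 * k)) m = digit N (k + m) := by
  rw [digit, digit, slot_eq, Nat.shiftRight_eq_div_pow, ← pow_mul, ← pow_mul, Nat.div_div_eq_div_mul, ← pow_add,
    mul_add]

theorem digit_and (x y m : ℕ) : digit (x &&& y) m = digit x m &&& digit y m := by
  refine Nat.eq_of_testBit_eq fun i => ?_
  simp only [digit, slot_eq, ← pow_mul, Nat.testBit_and, Nat.testBit_mod_two_pow, Nat.testBit_div_two_pow]
  cases decide (i < 32) <;> simp

theorem digit_sum : ∀ (n : ℕ) (f : ℕ → ℕ), (∀ i, f i < slot) → ∀ m,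
    digit (∑ i ∈ Finset.range n, f i * slot ^ i) m = if m < n then f m else 0
  | 0, f, _, m => by simp [digit]
  | n + 1, f, hf, m => by
      rw [Finset.sum_range_succ', pow_zero, mul_one]
      have e : ∑ i ∈ Finset.range n, f (i + 1) * slot ^ (i + 1) =
          slot * ∑ i ∈ Finset.range n, f (i + 1) * slot ^ i := by
        rw [Finset.mul_sum]; exact Finset.sum_congr rfl fun i _ => by rw [pow_succ]; ring
      rw [e]
      rcases m with _ | m
      · simp [digit, Nat.add_mod, Nat.mod_eq_of_lt (hf 0)]
      · have ih := digit_sum n (fun i => f (i + 1)) (fun i => hf _) m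
        rw [digit, pow_succ', ← Nat.div_div_eq_div_mul, add_comm, Nat.add_mul_div_left _ _ slot_pos,
          Nat.div_eq_of_lt (hf 0), zero_add]
        rw [digit] at ih
        rw [ih]
        simp

theorem sum_digit : ∀ (n N : ℕ), N < slot ^ n → N = ∑ i ∈ Finset.range n, digit N i * slot ^ i
  | 0, N, h => by simp at h; simp [h]
  | n + 1, N, h => by
      rw [Finset.sum_range_succ', pow_zero, mul_one]
      have ih := sum_digit n (N / slot) (by rw [Nat.div_lt_iff_lt_mul slot_pos, ← pow_succ]; exact h)
      have e : ∀ i, digit N (i + 1) = digit (N / slot) i := fun i => by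
        rw [digit, digit, pow_succ', ← Nat.div_div_eq_div_mul]
      rw [Finset.sum_congr rfl fun i _ => show digit N (i + 1) * slot ^ (i + 1) =
        slot * (digit (N / slot) i * slot ^ i) by rw [e, pow_succ]; ring, ← Finset.mul_sum, ← ih]
      simp [digit, Nat.div_add_mod]

/-- The packed form of a family of entries. -/
def pack (f : Fin dim → Fin dim → ℕ) : ℕ := ∑ i : Fin dim, ∑ j : Fin dim, f i j * slot ^ (dim * i.1 + j.1)

/-- The flattened family. -/
def flat (f : Fin dim → Fin dim → ℕ) (m : ℕ) : ℕ :=
  if h : m < dim * dim then f ⟨m / dim, Nat.div_lt_iff_lt_mul (by norm_num) |>.2 h⟩ ⟨m % dim, Nat.mod_lt _ (by norm_num)⟩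
  else 0

theorem pack_eq (f : Fin dim → Fin dim → ℕ) :
    pack f = ∑ m ∈ Finset.range (dim * dim), flat f m * slot ^ m := by
  rw [← Fin.sum_univ_eq_sum_range (fun m => flat f m * slot ^ m), ← finProdFinEquiv.sum_comp,
    Fintype.sum_prod_type, pack]
  refine Finset.sum_congr rfl fun i _ => Finset.sum_congr rfl fun j _ => ?_
  have hv : ((finProdFinEquiv (i, j) : Fin (dim * dim)) : ℕ) = dim * i.1 + j.1 := by
    simp [add_comm]
  have hlt : dim * i.1 + j.1 < dim * dim := by
    have := i.2; have := j.2; simp only [dim] at *; omega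
  have e1 : (dim * i.1 + j.1) / dim = i.1 := by
    have := j.2; simp only [dim] at *; omega
  have e2 : (dim * i.1 + j.1) % dim = j.1 := by
    have := j.2; simp only [dim] at *; omega
  rw [hv, flat, dif_pos hlt]
  simp only [e1, e2, Fin.eta]

/-- The entry of a packed matrix. -/
def entry (N : ℕ) (i j : Fin dim) : ℕ := digit N (dim * i.1 + j.1)

theorem entry_pack {f : Fin dim → Fin dim → ℕ} (hf : ∀ i j, f i j < slot) (i j : Fin dim) :
    entry (pack f) i j = f i j := by
  have hlt : dim * i.1 + j.1 < dim * dim := by
    have := i.2; have := j.2; simp only [dim] at *; omega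
  have hfl : ∀ m, flat f m < slot := fun m => by
    rw [flat]; split_ifs
    · exact hf _ _
    · exact slot_pos
  have e1 : (dim * i.1 + j.1) / dim = i.1 := by
    have := j.2; simp only [dim] at *; omega
  have e2 : (dim * i.1 + j.1) % dim = j.1 := by
    have := j.2; simp only [dim] at *; omega
  rw [entry, pack_eq, digit_sum _ _ hfl, if_pos hlt, flat, dif_pos hlt]
  simp only [e1, e2, Fin.eta]

theorem eq_pack {N : ℕ} {f : Fin dim → Fin dim → ℕ} (hN : N < slot ^ (dim * dim))
    (h : ∀ i j, entry N i j = f i j) : N = pack f := by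
  rw [pack_eq, sum_digit _ N hN]
  refine Finset.sum_congr rfl fun m hm => ?_
  rw [flat, dif_pos (Finset.mem_range.1 hm), ← h, entry, Nat.div_add_mod]

theorem colMask_digit : ((List.range (dim * dim)).all fun m =>
    digit colMask m == if m % dim = 0 then 4294967295 else 0) = true ∧ colMask < slot ^ (dim * dim) := by
  constructor <;> decide +kernel

theorem rowMask_digit : ((List.range (dim * dim)).all fun m =>
    digit rowMask m == if m < dim then 4294967295 else 0) = true ∧ rowMask < slot ^ (dim * dim) := by
  constructor <;> decide +kernel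

theorem lowMask_digit : ((List.range (dim * dim)).all fun m => digit lowMask m == 65535) = true ∧
    lowMask < slot ^ (dim * dim) := by
  constructor <;> decide +kernel

theorem and_top {x : ℕ} (hx : x < slot) : x &&& 4294967295 = x := by
  rw [show (4294967295 : ℕ) = 2 ^ 32 - 1 from rfl, Nat.and_two_pow_sub_one_eq_mod,
    Nat.mod_eq_of_lt (slot_eq ▸ hx)]

theorem digit_lt (N m : ℕ) : digit N m < slot := Nat.mod_lt _ slot_pos

theorem colOf_eq (N : ℕ) (k : Fin dim) :
    colOf N k = pack fun i j => if j.1 = 0 then entry N i k else 0 := by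
  refine eq_pack (lt_of_le_of_lt Nat.and_le_right colMask_digit.2) fun i j => ?_
  have hlt : dim * i.1 + j.1 < dim * dim := by
    have := i.2; have := j.2; simp only [dim] at *; omega
  have h := colMask_digit.1
  simp only [List.all_eq_true, List.mem_range, beq_iff_eq] at h
  have e2 : (dim * i.1 + j.1) % dim = j.1 := by
    have := j.2; simp only [dim] at *; omega
  rw [entry, colOf, digit_and, digit_shift, h _ hlt, e2]
  split_ifs with hj
  · rw [and_top (digit_lt _ _), entry, hj, add_zero, add_comm]
  · simp

theorem rowOf_eq (N : ℕ) (k : Fin dim) :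
    rowOf N k = pack fun i j => if i.1 = 0 then entry N k j else 0 := by
  refine eq_pack (lt_of_le_of_lt Nat.and_le_right rowMask_digit.2) fun i j => ?_
  have hlt : dim * i.1 + j.1 < dim * dim := by
    have := i.2; have := j.2; simp only [dim] at *; omega
  have h := rowMask_digit.1
  simp only [List.all_eq_true, List.mem_range, beq_iff_eq] at h
  have e2 : dim * i.1 + j.1 < dim ↔ i.1 = 0 := by
    have := j.2; simp only [dim] at *; omega
  rw [entry, rowOf, digit_and, digit_shift, h _ hlt]
  simp only [e2]
  split_ifs with hi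
  · rw [and_top (digit_lt _ _), entry, hi, mul_zero, zero_add]
  · simp

/-- A packed matrix with all entries at most ten. -/
structure Wf (N : ℕ) : Prop where
  lt : N < slot ^ (dim * dim)
  le : ∀ i j, entry N i j ≤ 10

/-- A check for `Wf`. -/
def chkWf (N : ℕ) : Bool :=
  N >>> (32 * (dim * dim)) == 0 && (List.range (dim * dim)).all fun m => Nat.ble (digit N m) 10

theorem wf_of_chk {N : ℕ} (h : chkWf N = true) : Wf N := by
  simp only [chkWf, Bool.and_eq_true, beq_iff_eq, List.all_eq_true, List.mem_range, Nat.ble_eq,
    Nat.shiftRight_eq_div_pow] at h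
  refine ⟨?_, fun i j => h.2 _ ?_⟩
  · rw [slot_eq, ← pow_mul]
    exact (Nat.div_eq_zero_iff.1 h.1).resolve_left (by positivity)
  · have := i.2; have := j.2; simp only [dim] at *; omega

theorem rawMul_eq {A B : ℕ} :
    rawMul A B = pack fun i j => ∑ k : Fin dim, entry A i k * entry B k j := by
  have hterm : ∀ k : Fin dim, colOf A k * rowOf B k = pack fun i j => entry A i k * entry B k j := by
    intro k
    have hc : colOf A k = ∑ i : Fin dim, entry A i k * slot ^ (dim * i.1) := by
      rw [colOf_eq, pack]
      refine Finset.sum_congr rfl fun i _ => ?_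
      rw [Finset.sum_eq_single (⟨0, by norm_num⟩ : Fin dim) (fun j _ hj => by
        rw [if_neg fun e => hj (Fin.ext e), zero_mul]) (by simp)]
      simp
    have hr : rowOf B k = ∑ j : Fin dim, entry B k j * slot ^ j.1 := by
      rw [rowOf_eq, pack, Finset.sum_eq_single (⟨0, by norm_num⟩ : Fin dim) (fun i _ hi =>
        Finset.sum_eq_zero fun j _ => by rw [if_neg fun e => hi (Fin.ext e), zero_mul]) (by simp)]
      simp
    rw [hc, hr, Finset.sum_mul, pack]
    refine Finset.sum_congr rfl fun i _ => ?_
    rw [Finset.mul_sum]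
    refine Finset.sum_congr rfl fun j _ => ?_
    rw [pow_add]; ring
  have hl : rawMul A B = ∑ k : Fin dim, colOf A k * rowOf B k := by
    rw [rawMul, Fin.sum_univ_eq_sum_range (fun k => colOf A k * rowOf B k)]
    rfl
  rw [hl, Finset.sum_congr rfl fun k _ => hterm k]
  simp only [pack, Finset.sum_mul]
  rw [Finset.sum_comm]
  exact Finset.sum_congr rfl fun i _ => Finset.sum_comm

theorem redAll_pack {f : Fin dim → Fin dim → ℕ} (hf : ∀ i j, f i j ≤ 5200) :
    redAll (pack f) = pack fun i j => f i j % 11 := by
  have hmul : pack f * 5958 = pack fun i j => f i j * 5958 := by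
    simp only [pack, Finset.sum_mul]
    exact Finset.sum_congr rfl fun i _ => Finset.sum_congr rfl fun j _ => mul_right_comm _ _ _
  have hq : (pack f * 5958) >>> 16 &&& lowMask = pack fun i j => f i j / 11 := by
    refine eq_pack (lt_of_le_of_lt Nat.and_le_right lowMask_digit.2) fun i j => ?_
    have hlt : dim * i.1 + j.1 < dim * dim := by
      have := i.2; have := j.2; simp only [dim] at *; omega
    have h := lowMask_digit.1
    simp only [List.all_eq_true, List.mem_range, beq_iff_eq] at h
    have hd : digit (pack f * 5958) (dim * i.1 + j.1) = f i j * 5958 := by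
      rw [hmul]
      exact entry_pack (fun a b => by have := hf a b; simp only [slot]; omega) i j
    rw [entry, digit_and, h _ hlt, show (65535 : ℕ) = 2 ^ 16 - 1 from rfl, Nat.and_two_pow_sub_one_eq_mod]
    set N := pack f * 5958
    set m := dim * i.1 + j.1
    have e : digit (N >>> 16) m % 2 ^ 16 = digit N m / 2 ^ 16 := by
      rw [digit, digit, slot_eq, Nat.shiftRight_eq_div_pow, Nat.mod_mod_of_dvd _ (by norm_num),
        Nat.div_div_eq_div_mul, mul_comm, ← Nat.div_div_eq_div_mul,
        show (2 : ℕ) ^ 32 = 2 ^ 16 * 2 ^ 16 by norm_num, Nat.mod_mul_right_div_self]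
    rw [e, hd]
    have := hf i j
    norm_num
    omega
  have hsum : pack f = pack (fun i j => f i j % 11) + 11 * pack fun i j => f i j / 11 := by
    simp only [pack, Finset.mul_sum, ← Finset.sum_add_distrib]
    refine Finset.sum_congr rfl fun i _ => Finset.sum_congr rfl fun j _ => ?_
    conv_lhs => rw [← Nat.mod_add_div (f i j) 11]
    ring
  rw [redAll, hq]
  conv_lhs => rw [hsum]
  rw [Nat.add_sub_cancel]

theorem pack_lt {f : Fin dim → Fin dim → ℕ} (hf : ∀ i j, f i j < slot) :
    pack f < slot ^ (dim * dim) := by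
  rw [pack_eq]
  have key : ∀ n (g : ℕ → ℕ), (∀ i, g i < slot) → ∑ i ∈ Finset.range n, g i * slot ^ i < slot ^ n := by
    intro n
    induction n with
    | zero => intro g _; simp
    | succ n ih =>
      intro g hg
      rw [Finset.sum_range_succ, pow_succ]
      have := ih g hg
      have h2 : g n * slot ^ n + slot ^ n ≤ slot ^ n * slot := by
        rw [← add_one_mul, mul_comm]; exact Nat.mul_le_mul_left _ (hg n)
      omega
  refine key _ _ fun m => ?_
  rw [flat]; split_ifs
  · exact hf _ _
  · exact slot_pos

theorem entry_fmul {A B : ℕ} (hA : Wf A) (hB : Wf B) (i j : Fin dim) :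
    entry (fmul A B) i j = (∑ k : Fin dim, entry A i k * entry B k j) % 11 := by
  have hb : ∀ i j, ∑ k : Fin dim, entry A i k * entry B k j ≤ 5200 := fun i j => by
    refine (Finset.sum_le_card_nsmul _ _ 100 fun k _ => Nat.mul_le_mul (hA.le i k) (hB.le k j)).trans ?_
    norm_num [dim]
  rw [fmul, rawMul_eq, redAll_pack hb]
  exact entry_pack (fun a b => lt_trans (Nat.mod_lt _ (by norm_num)) (by norm_num [slot])) i j

theorem wf_fmul {A B : ℕ} (hA : Wf A) (hB : Wf B) : Wf (fmul A B) := by
  refine ⟨?_, fun i j => by rw [entry_fmul hA hB]; omega⟩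
  have hb : ∀ i j, ∑ k : Fin dim, entry A i k * entry B k j ≤ 5200 := fun i j => by
    refine (Finset.sum_le_card_nsmul _ _ 100 fun k _ => Nat.mul_le_mul (hA.le i k) (hB.le k j)).trans ?_
    norm_num [dim]
  rw [fmul, rawMul_eq, redAll_pack hb]
  exact pack_lt fun a b => lt_trans (Nat.mod_lt _ (by norm_num)) (by norm_num [slot])

/-- The matrix of a packed matrix. -/
def toM (N : ℕ) : Matrix (Fin dim) (Fin dim) (ZMod 11) := Matrix.of fun i j => (entry N i j : ZMod 11)

theorem toM_fmul {A B : ℕ} (hA : Wf A) (hB : Wf B) : toM (fmul A B) = toM A * toM B := by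
  ext i j
  rw [Matrix.mul_apply]
  simp only [toM, Matrix.of_apply]
  rw [entry_fmul hA hB, ZMod.natCast_mod, Nat.cast_sum]
  simp only [Nat.cast_mul]

theorem chk_idP : chkWf idP = true ∧ chkWf negP = true ∧ ((List.range (dim * dim)).all fun m =>
    digit idP m == (if m % 53 = 0 then 1 else 0) && digit negP m == (if m % 53 = 0 then 10 else 0)) = true := by
  refine ⟨?_, ?_, ?_⟩ <;> decide +kernel

theorem toM_idP : toM idP = 1 ∧ toM negP = -1 := by
  have h := chk_idP.2.2
  simp only [List.all_eq_true, List.mem_range, Bool.and_eq_true, beq_iff_eq] at h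
  have hiff : ∀ i j : Fin dim, (dim * i.1 + j.1) % 53 = 0 ↔ i = j := fun i j => by
    rw [Fin.ext_iff]; have := i.2; have := j.2; simp only [dim] at *; omega
  have hm : ((10 : ℕ) : ZMod 11) = -1 := by decide
  refine ⟨?_, ?_⟩ <;>
    · ext i j
      have hh := h (dim * i.1 + j.1) (by have := i.2; have := j.2; simp only [dim] at *; omega)
      simp only [toM, entry, Matrix.of_apply, Matrix.neg_apply, Matrix.one_apply, hh.1, hh.2, hiff]
      split_ifs <;> rfl

end Cfsg.Agent.H46.F4Two
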