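import Mathlib

/-!
# Certificates for consistency equations of a system of commutation rules

Letters are roots numbered below `48`, the opposite of `a` being `47 - a`. A rule moves `a` to the right
past `b` (not opposite, different) producing the word `W b a` and a central error term; a second rule
deletes a doubled letter, again with a central error term. Two runs from one word with the same final
word give an equation between error terms; certificates express every error term in a small basis.
-/

set_option autoImplicit false

namespace Cfsg.Agent.H46.F4Two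

/-- A binary tree of values. -/
inductive BTree (α : Type) : Type where
  | leaf (v : α) : BTree α
  | node (l r : BTree α) : BTree α

/-- Lookup by the binary digits of the index, least significant first. -/
def BTree.get {α : Type} : BTree α → ℕ → α
  | .leaf v, _ => v
  | .node l r, n => if n % 2 = 0 then l.get (n / 2) else r.get (n / 2)

/-- The index of the error term of the pair `(r, s)`. -/
def uid (r s : ℕ) : ℕ := r * 48 + s

/-- The index of the error term of the square of `r`. -/
def did (r : ℕ) : ℕ := 2304 + r

/-- One rewriting step at a position. -/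
def step (W : ℕ → ℕ → List ℕ) : List ℕ → ℕ → Option (List ℕ × ℕ)
  | a :: b :: rest, 0 =>
      if 48 ≤ a ∨ 48 ≤ b then none
      else if a = b then some (rest, did a)
      else if a + b = 47 then none
      else some (b :: a :: (W b a ++ rest), uid b a)
  | a :: rest, p + 1 => (step W rest p).map fun x => (a :: x.1, x.2)
  | _, _ => none

/-- A sequence of steps. -/
def run (W : ℕ → ℕ → List ℕ) : List ℕ → List ℕ → Option (List ℕ × List ℕ)
  | w, [] => some (w, [])
  | w, p :: ps => (step W w p).bind fun x => (run W x.1 ps).map fun y => (y.1, x.2 :: y.2)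

/-- Adding one term to a sparse vector. -/
def ins (x : ℕ × ℤ) : List (ℕ × ℤ) → List (ℕ × ℤ)
  | [] => [x]
  | y :: l => if x.1 = y.1 then (x.1, x.2 + y.2) :: l else y :: ins x l

/-- Collecting the terms of a sparse vector. -/
def norm (l : List (ℕ × ℤ)) : List (ℕ × ℤ) := l.foldr ins []

/-- The vector is zero. -/
def isZero (l : List (ℕ × ℤ)) : Bool := (norm l).all fun x => x.2 == 0

/-- The negative of a sparse vector. -/
def negV (l : List (ℕ × ℤ)) : List (ℕ × ℤ) := l.map fun x => (x.1, -x.2)

/-- The bit mask of the known error terms after a step. -/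
def addKnown (known k : ℕ) : ℕ := known ||| (1 <<< k)

/-- One elimination step: the two runs, the term solved for and its net coefficient. -/
structure Elim where
  word : List ℕ
  opsA : List ℕ
  opsB : List ℕ
  var : ℕ

/-- The net number of occurrences. -/
def netCount (k : ℕ) (A B : List ℕ) : ℤ := (A.count k : ℤ) - (B.count k : ℤ)

/-- The value of an equation. -/
def eqVec (T : ℕ → List (ℕ × ℤ)) (A B : List ℕ) : List (ℕ × ℤ) := A.flatMap T ++ negV (B.flatMap T)

/-- Checking one elimination step. -/
def chkElim (W : ℕ → ℕ → List ℕ) (T : ℕ → List (ℕ × ℤ)) (known : ℕ) (e : Elim) : Bool :=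
  match run W e.word e.opsA, run W e.word e.opsB with
  | some (u, A), some (v, B) =>
      u == v && (A.diff B ++ B.diff A).all (fun k => k == e.var || known.testBit k) &&
        (netCount e.var (A.diff B) (B.diff A) == 1 || netCount e.var (A.diff B) (B.diff A) == -1) &&
        isZero (eqVec T (A.diff B) (B.diff A))
  | _, _ => false

/-- Checking a list of elimination steps; the final mask of known terms is returned. -/
def chkElims (W : ℕ → ℕ → List ℕ) (T : ℕ → List (ℕ × ℤ)) : ℕ → List Elim → Option ℕ
  | known, [] => some known
  | known, e :: es => if chkElim W T known e then chkElims W T (addKnown known e.var) es else none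

/-- Checking a pure relation: the equation has value `v`. -/
def chkRelation (W : ℕ → ℕ → List ℕ) (T : ℕ → List (ℕ × ℤ)) (known : ℕ) (v : List (ℕ × ℤ))
    (word opsA opsB : List ℕ) : Bool :=
  match run W word opsA, run W word opsB with
  | some (x, A), some (y, B) =>
      x == y && (A.diff B ++ B.diff A).all (fun k => known.testBit k) &&
        isZero (eqVec T (A.diff B) (B.diff A) ++ negV v)
  | _, _ => false

section Sound

variable {E : Type*} [Group E] {K : Type*} [CommGroup K]

/-- The value of a word. -/
def ev (L : ℕ → E) (w : List ℕ) : E := (w.map L).prod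

/-- The value of a sparse vector. -/
def phi (b : ℕ → K) (l : List (ℕ × ℤ)) : K := (l.map fun x => b x.1 ^ x.2).prod

/-- The data of a system of rules with central error terms. -/
structure Rules (W : ℕ → ℕ → List ℕ) (L : ℕ → E) (c : ℕ → K) (ι : K →* E) : Prop where
  central : ∀ (k : K) (x : E), Commute (ι k) x
  injective : Function.Injective ι
  sq : ∀ a, a < 48 → L a * L a = ι (c (did a))
  swap : ∀ a b, a < 48 → b < 48 → a ≠ b → a + b ≠ 47 → L a * L b = L b * L a * ev L (W b a) * ι (c (uid b a))

variable {W : ℕ → ℕ → List ℕ} {L : ℕ → E} {c : ℕ → K} {ι : K →* E}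

theorem ev_cons (L : ℕ → E) (a : ℕ) (w : List ℕ) : ev L (a :: w) = L a * ev L w := by simp [ev]

theorem ev_append (L : ℕ → E) (v w : List ℕ) : ev L (v ++ w) = ev L v * ev L w := by simp [ev]

theorem Rules.step_eq (R : Rules W L c ι) : ∀ (w : List ℕ) (p : ℕ) (x : List ℕ × ℕ),
    step W w p = some x → ev L w = ev L x.1 * ι (c x.2)
  | [], p, x, h => by simp [step] at h
  | [_], 0, x, h => by simp [step] at h
  | a :: b :: rest, 0, x, h => by
      simp only [step] at h
      split_ifs at h with h0 h1 h2
      · obtain rfl := Option.some.inj h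
        subst h1
        rw [ev_cons, ev_cons, ← mul_assoc, R.sq a (by omega), (R.central _ _).eq]
      · obtain rfl := Option.some.inj h
        simp only [ev_cons, ev_append]
        rw [← mul_assoc, R.swap a b (by omega) (by omega) h1 h2, mul_assoc _ (ι _), (R.central _ (ev L rest)).eq]
        group
  | a :: rest, p + 1, x, h => by
      simp only [step, Option.map_eq_some_iff] at h
      obtain ⟨y, hy, rfl⟩ := h
      rw [ev_cons, R.step_eq rest p y hy, ev_cons, mul_assoc]

theorem Rules.run_eq (R : Rules W L c ι) : ∀ (ops w : List ℕ) (x : List ℕ × List ℕ),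
    run W w ops = some x → ev L w = ev L x.1 * ι (x.2.map c).prod
  | [], w, x, h => by
      obtain rfl := Option.some.inj h
      simp
  | p :: ps, w, x, h => by
      simp only [run, Option.bind_eq_some_iff, Option.map_eq_some_iff] at h
      obtain ⟨y, hy, z, hz, rfl⟩ := h
      rw [R.step_eq w p y hy, R.run_eq ps y.1 z hz, mul_assoc, List.map_cons, List.prod_cons,
        map_mul, (R.central (c y.2) (ι (z.2.map c).prod)).eq]

theorem Rules.equation (R : Rules W L c ι) {w opsA opsB u A B : List ℕ}
    (hA : run W w opsA = some (u, A)) (hB : run W w opsB = some (u, B)) :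
    ((A.diff B).map c).prod = ((B.diff A).map c).prod := by
  have h : (A.map c).prod = (B.map c).prod :=
    R.injective (mul_left_cancel ((R.run_eq _ _ _ hA).symm.trans (R.run_eq _ _ _ hB)))
  have hsplit : ∀ X Y : List ℕ, (X.map c).prod =
      ((X.diff Y).map c).prod * (((X : Multiset ℕ) ∩ (Y : Multiset ℕ)).map c).prod := fun X Y => by
    conv_lhs => rw [← Multiset.prod_coe, ← Multiset.map_coe, ← Multiset.sub_add_inter (X : Multiset ℕ) (Y : Multiset ℕ)]
    rw [Multiset.map_add, Multiset.prod_add, Multiset.coe_sub, Multiset.map_coe, Multiset.prod_coe]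
  rw [hsplit A B, hsplit B A, Multiset.inter_comm (B : Multiset ℕ)] at h
  exact mul_right_cancel h

variable (b : ℕ → K)

theorem phi_cons (x : ℕ × ℤ) (l : List (ℕ × ℤ)) : phi b (x :: l) = b x.1 ^ x.2 * phi b l := by
  simp [phi]

theorem phi_nil : phi b [] = 1 := by simp [phi]

theorem phi_append (l m : List (ℕ × ℤ)) : phi b (l ++ m) = phi b l * phi b m := by simp [phi]

theorem phi_negV : ∀ l : List (ℕ × ℤ), phi b (negV l) = (phi b l)⁻¹
  | [] => by simp [negV, phi]
  | x :: l => by
      rw [show negV (x :: l) = (x.1, -x.2) :: negV l from rfl, phi_cons, phi_cons, phi_negV l, zpow_neg,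
        mul_inv]

theorem phi_flatMap (T : ℕ → List (ℕ × ℤ)) : ∀ A : List ℕ,
    phi b (A.flatMap T) = (A.map fun k => phi b (T k)).prod
  | [] => by simp [phi]
  | a :: A => by simp [List.flatMap_cons, phi_append, phi_flatMap T A]

theorem phi_ins (x : ℕ × ℤ) : ∀ l, phi b (ins x l) = b x.1 ^ x.2 * phi b l
  | [] => by simp [ins, phi]
  | y :: l => by
      rw [ins]
      split_ifs with h
      · rw [phi_cons, phi_cons, zpow_add, ← h, mul_assoc]
      · rw [phi_cons, phi_cons, phi_ins x l, mul_left_comm]

theorem phi_norm : ∀ l : List (ℕ × ℤ), phi b (norm l) = phi b l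
  | [] => rfl
  | x :: l => by
      rw [show norm (x :: l) = ins x (norm l) from rfl, phi_ins, phi_norm l, phi_cons]

theorem phi_of_isZero {l : List (ℕ × ℤ)} (h : isZero l = true) : phi b l = 1 := by
  rw [← phi_norm]
  refine List.prod_eq_one fun y hy => ?_
  obtain ⟨x, hx, rfl⟩ := List.mem_map.1 hy
  have h0 : x.2 = 0 := by
    have := List.all_eq_true.1 h x hx
    simpa using this
  rw [h0, zpow_zero]

theorem prod_split (T : ℕ → List (ℕ × ℤ)) (k : ℕ) : ∀ A : List ℕ,
    (∀ a ∈ A, a ≠ k → c a = phi b (T a)) →
    (A.map c).prod = (A.map fun a => phi b (T a)).prod * (c k / phi b (T k)) ^ (A.count k : ℤ)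
  | [], _ => by simp
  | a :: A, h => by
      have ih := prod_split T k A fun x hx => h x (List.mem_cons_of_mem _ hx)
      rw [List.map_cons, List.prod_cons, List.map_cons, List.prod_cons, ih, List.count_cons]
      by_cases ha : a = k
      · subst ha
        rw [if_pos (by simp), Nat.cast_add, Nat.cast_one, zpow_add, zpow_one]
        conv_lhs => arg 1; rw [← mul_div_cancel (phi b (T a)) (c a)]
        ac_rfl
      · rw [if_neg (by simpa using ha), add_zero, h a List.mem_cons_self ha, mul_assoc]

theorem testBit_addKnown {known k a : ℕ} (h : (addKnown known k).testBit a = true) :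
    known.testBit a = true ∨ a = k := by
  rw [addKnown, Nat.testBit_or, Bool.or_eq_true] at h
  rcases h with h | h
  · exact Or.inl h
  · refine Or.inr ?_
    rw [Nat.one_shiftLeft, Nat.testBit_two_pow] at h
    exact (of_decide_eq_true h).symm

theorem Rules.elim_eq (R : Rules W L c ι) {T : ℕ → List (ℕ × ℤ)} {known : ℕ} {e : Elim}
    (h : chkElim W T known e = true) (hk : ∀ a, known.testBit a = true → c a = phi b (T a)) :
    c e.var = phi b (T e.var) := by
  unfold chkElim at h
  split at h
  case h_2 => simp at h
  case h_1 u A v B hA hB =>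
    simp only [Bool.and_eq_true, Bool.or_eq_true, beq_iff_eq, List.all_eq_true] at h
    obtain ⟨⟨⟨rfl, hkn⟩, hnet⟩, hz⟩ := h
    have hmem : ∀ a ∈ A.diff B ++ B.diff A, a ≠ e.var → c a = phi b (T a) := fun a ha hne =>
      hk a ((hkn a ha).resolve_left hne)
    have e1 := R.equation hA hB
    rw [prod_split b T e.var (A.diff B) fun a ha => hmem a (List.mem_append_left _ ha),
      prod_split b T e.var (B.diff A) fun a ha => hmem a (List.mem_append_right _ ha)] at e1
    have e2 := phi_of_isZero b hz
    rw [eqVec, phi_append, phi_negV, phi_flatMap, phi_flatMap, mul_inv_eq_one] at e2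
    rw [e2, mul_right_inj] at e1
    have e3 : (c e.var / phi b (T e.var)) ^ netCount e.var (A.diff B) (B.diff A) = 1 := by
      rw [netCount, zpow_sub, e1, mul_inv_cancel]
    rcases hnet with hn | hn <;> rw [hn] at e3
    · rw [zpow_one, div_eq_one] at e3; exact e3
    · rw [zpow_neg, zpow_one, inv_eq_one, div_eq_one] at e3; exact e3

theorem Rules.elims_eq (R : Rules W L c ι) {T : ℕ → List (ℕ × ℤ)} : ∀ (es : List Elim) (known final : ℕ),
    chkElims W T known es = some final → (∀ a, known.testBit a = true → c a = phi b (T a)) →
    ∀ a, final.testBit a = true → c a = phi b (T a)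
  | [], known, final, h, hk => by
      obtain rfl := Option.some.inj h
      exact hk
  | e :: es, known, final, h, hk => by
      rw [chkElims] at h
      split_ifs at h with he
      refine R.elims_eq es _ final h fun a ha => ?_
      rcases testBit_addKnown ha with ha | rfl
      · exact hk a ha
      · exact R.elim_eq b he hk

theorem Rules.relation_eq (R : Rules W L c ι) {T : ℕ → List (ℕ × ℤ)} {known : ℕ} {v : List (ℕ × ℤ)}
    {w opsA opsB : List ℕ} (h : chkRelation W T known v w opsA opsB = true)
    (hk : ∀ a, known.testBit a = true → c a = phi b (T a)) : phi b v = 1 := by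
  unfold chkRelation at h
  split at h
  case h_2 => simp at h
  case h_1 u A x B hA hB =>
    simp only [Bool.and_eq_true, beq_iff_eq, List.all_eq_true] at h
    obtain ⟨⟨rfl, hkn⟩, hz⟩ := h
    have e1 := R.equation hA hB
    rw [List.map_congr_left fun a ha => hk a (hkn a (List.mem_append_left _ ha)),
      List.map_congr_left fun a ha => hk a (hkn a (List.mem_append_right _ ha)),
      ← phi_flatMap, ← phi_flatMap] at e1
    have e2 := phi_of_isZero b hz
    rw [eqVec, phi_append, phi_append, phi_negV, phi_negV, e1, mul_inv_cancel, one_mul, inv_eq_one] at e2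
    exact e2

end Sound

end Cfsg.Agent.H46.F4Two
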