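import Cfsg.Agent.H46.F4Two.Elim1
import Cfsg.Agent.H46.F4Two.Elim2
import Cfsg.Agent.H46.F4Two.Elim3
import Cfsg.Agent.H46.F4Two.Elim4
import Cfsg.Agent.H46.F4Two.Elim5
import Cfsg.Agent.H46.F4Two.Elim6
import Cfsg.Agent.H46.F4Two.Elim7
import Cfsg.Agent.H46.F4Two.Elim8
import Cfsg.Agent.H46.F4Two.Relation
import Cfsg.Agent.H82.Chev.Cover
import Cfsg.Agent.H82.Central
import Cfsg.Agent.H46.TypeF4
import Cfsg.Agent.H70.Steinberg.Perfect

/-!
# The multiplier of F4(2) has order at most two

The error terms of arbitrary lifts of the root elements are expressed in a basis of 49 of them by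
elimination; after correcting the lifts every error is a power of a single involution.
-/

set_option autoImplicit false
set_option maxRecDepth 100000

namespace Cfsg.Agent.H46.F4Two

open Cfsg.Lie Cfsg.Agent.H46
open Cfsg.Agent.H70.Steinberg (groupPres cert_of_mem center_eq_bot invF4 chkInv_small)

/-- Membership of `r` and `s` in the domain of the rules. -/
def okPair (r s : ℕ) : Bool := r != s && r + s != 47

/-- The roots occurring in the commutator formula in characteristic two. -/
def oddTerms (r s : ℕ) : List ℕ :=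
  ((chevF4.commTerms r s).filter fun c => c.2.1 % 2 != 0).map fun c => c.1

theorem chk_words : ((List.range 48).all fun r => (List.range 48).all fun s => !okPair r s ||
    (wTab r s == oddTerms r s && ((chevF4.commTerms r s).all fun c => c.2.2.1 != 0 && c.2.2.2 != 0) &&
      (wTab r s).all (fun k => k < 48))) = true := by
  decide +kernel

theorem chk_neg : ((List.range 48).all fun r => chevF4.neg r == 47 - r) = true := by decide +kernel

theorem word_spec {r s : ℕ} (hr : r < 48) (hs : s < 48) (h1 : r ≠ s) (h2 : r + s ≠ 47) :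
    wTab r s = oddTerms r s ∧ (∀ c ∈ chevF4.commTerms r s, c.2.2.1 ≠ 0 ∧ c.2.2.2 ≠ 0) ∧
      ∀ k ∈ wTab r s, k < 48 := by
  have h := chk_words
  simp only [List.all_eq_true, List.mem_range, Bool.or_eq_true, Bool.and_eq_true, beq_iff_eq, okPair,
    Bool.not_eq_true', Bool.and_eq_false_iff, bne_eq_false_iff_eq, bne_iff_ne, decide_eq_true_eq] at h
  rcases h r hr s hs with (h | h) | ⟨⟨h, h'⟩, h''⟩
  · exact absurd h h1
  · exact absurd h h2
  · exact ⟨h, h', h''⟩

theorem neg_spec {r : ℕ} (hr : r < 48) : chevF4.neg r = 47 - r := by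
  have h := chk_neg
  simp only [List.all_eq_true, List.mem_range, beq_iff_eq] at h
  exact h r hr

section Field

variable {F : Type*} [Field F] [Fintype F]

theorem eq_zero_or_one (hF : Fintype.card F = 2) (t : F) : t = 0 ∨ t = 1 := by
  classical
  by_contra h
  simp only [not_or] at h
  have : ({0, 1, t} : Finset F).card ≤ 2 := hF ▸ Finset.card_le_univ _
  rw [Finset.card_insert_of_notMem (by simp [Ne.symm h.1]),
    Finset.card_pair (Ne.symm h.2)] at this
  omega

theorem two_eq_zero (hF : Fintype.card F = 2) : (1 : F) + 1 = 0 := by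
  rcases eq_zero_or_one hF (1 + 1 : F) with h | h
  · exact h
  · exact absurd (add_eq_left.1 h) one_ne_zero

theorem cast_odd (hF : Fintype.card F = 2) (z : ℤ) : (z : F) = if z % 2 = 0 then 0 else 1 := by
  have h2 : (2 : F) = 0 := by linear_combination two_eq_zero hF
  conv_lhs => rw [← Int.emod_add_mul_ediv z 2]
  push_cast
  rw [h2, zero_mul, add_zero]
  rcases Int.emod_two_eq_zero_or_one z with h | h <;> simp [h]

/-- The product along a commutator word keeps the odd terms only. -/
theorem prod_commWord (hF : Fintype.card F = 2) {M : Type*} [Group M] (f : ℕ → F → M)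
    (h0 : ∀ k, f k 0 = 1) (r s : ℕ) :
    ((chevF4.commWord F r s 1 1).map fun x => f x.1 x.2).prod = ((oddTerms r s).map fun k => f k 1).prod := by
  have hm : (-1 : F) = 1 := by linear_combination -(two_eq_zero hF)
  simp only [ChevalleyDatum.commWord, oddTerms, List.map_map]
  induction chevF4.commTerms r s with
  | nil => simp
  | cons c l ih =>
    simp only [List.map_cons, List.prod_cons, List.filter_cons, Function.comp_apply]
    rw [ih, hm, one_pow, one_pow, mul_one, mul_one, cast_odd hF]
    by_cases hc : c.2.1 % 2 = 0 <;> simp [hc, h0]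

end Field

theorem chk_basis : (((List.range 49).all fun i => tTab (basisVar.getD i 0) == [(i, 1)]) &&
    (basisVar.length == 49) && (basisVar.foldl addKnown 0 == known0)) = true := by
  decide +kernel

theorem chk_final : ((List.range 48).all fun r => knownF.testBit (did r) &&
    (List.range 48).all fun s => !okPair r s || knownF.testBit (uid r s)) = true := by
  decide +kernel

/-- The multiple of the distinguished element in a vector. -/
def zMult (l : List (ℕ × ℤ)) : ℤ := ((norm l).filter fun x => x.1 == 10).foldl (fun a x => a + x.2) 0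

/-- Scaling a sparse vector. -/
def smulV (m : ℤ) (l : List (ℕ × ℤ)) : List (ℕ × ℤ) := l.map fun x => (x.1, m * x.2)

/-- The gauge of a root. -/
def gaugeAt (r : ℕ) : List (ℕ × ℤ) := gauge.getD r []

/-- The corrected error of a rule. -/
def fixedErr (r s : ℕ) : List (ℕ × ℤ) := tTab (uid r s) ++ negV ((wTab r s).flatMap gaugeAt)

/-- The corrected error of a square. -/
def fixedSq (r : ℕ) : List (ℕ × ℤ) := tTab (did r) ++ gaugeAt r ++ gaugeAt r

/-- The vector is a multiple of the distinguished one. -/
def isMult (l : List (ℕ × ℤ)) : Bool := isZero (l ++ negV (smulV (zMult l) zVec))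

theorem chk_gauge : ((List.range 48).all fun r => isMult (fixedSq r) &&
    (List.range 48).all fun s => !okPair r s || isMult (fixedErr r s)) = true := by
  decide +kernel

theorem phi_smulV {K : Type*} [CommGroup K] (b : ℕ → K) (m : ℤ) : ∀ l : List (ℕ × ℤ),
    phi b (smulV m l) = phi b l ^ m
  | [] => by simp [smulV, phi]
  | x :: l => by
      rw [show smulV m (x :: l) = (x.1, m * x.2) :: smulV m l from rfl, phi_cons, phi_cons, phi_smulV b m l,
        mul_zpow, ← zpow_mul, mul_comm x.2]

theorem phi_of_isMult {K : Type*} [CommGroup K] (b : ℕ → K) {l : List (ℕ × ℤ)} (h : isMult l = true) :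
    ∃ m : ℤ, phi b l = phi b zVec ^ m := by
  have h1 := phi_of_isZero b h
  rw [phi_append, phi_negV, phi_smulV, mul_inv_eq_one] at h1
  exact ⟨_, h1⟩

section Ext

variable {F : Type*} [Field F] [Fintype F] (hF : Fintype.card F = 2)
variable {Γ : Type*} [Group Γ] {π : Γ →* GL chevF4.Idx F}
variable (hc : π.ker ≤ Subgroup.center Γ)

include hF hc

open Classical in
/-- Lifts with central error terms can be corrected so that all errors are powers of one central involution. -/
theorem exists_fixed_lifts (L : ℕ → Γ) (hL : ∀ r < 48, π (L r) = goodF4.xg r 1) :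
    ∃ (M : ℕ → Γ) (z : Γ), z ∈ π.ker ∧ z * z = 1 ∧ (∀ r < 48, π (M r) = goodF4.xg r 1) ∧
      (∀ r < 48, M r * M r ∈ Subgroup.zpowers z) ∧
      ∀ r s, r < 48 → s < 48 → r ≠ s → r + s ≠ 47 →
        ∃ k ∈ Subgroup.zpowers z, M s * M r = M r * M s * ev M (wTab r s) * k := by
  let val : ℕ → Γ := fun k => if k < 2304
    then (L (k / 48) * L (k % 48) * ev L (wTab (k / 48) (k % 48)))⁻¹ * (L (k % 48) * L (k / 48))
    else L (k - 2304) * L (k - 2304)
  let c : ℕ → π.ker := fun k => if h : val k ∈ π.ker then ⟨val k, h⟩ else 1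
  letI : CommGroup π.ker :=
    { (inferInstance : Group π.ker) with
      mul_comm := fun a b => Subtype.ext (Subgroup.mem_center_iff.1 (hc b.2) a) }
  let ι : π.ker →* Γ := π.ker.subtype
  have hevπ : ∀ r s, r < 48 → s < 48 → r ≠ s → r + s ≠ 47 →
      π (ev L (wTab r s)) = ((oddTerms r s).map fun k => goodF4.xg k (1 : F)).prod := by
    intro r s hr hs h1 h2
    obtain ⟨hw, -, hlt⟩ := word_spec hr hs h1 h2
    rw [ev, map_list_prod, List.map_map, ← hw]
    exact congrArg List.prod (List.map_congr_left fun k hk => hL k (hlt k hk))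
  have hswap : ∀ r s, r < 48 → s < 48 → r ≠ s → r + s ≠ 47 →
      goodF4.xg s (1 : F) * goodF4.xg r 1 =
        goodF4.xg r 1 * goodF4.xg s 1 * ((oddTerms r s).map fun k => goodF4.xg k (1 : F)).prod := by
    intro r s hr hs h1 h2
    rw [← prod_commWord hF _ (fun k => goodF4.xg_zero k)]
    exact Cfsg.Agent.H82.Chev.xg_mul_xg goodF4 hr hs (Ne.symm h1) (by rw [neg_spec hr]; omega) 1 1
  have R : Rules wTab L c ι := by
    refine ⟨fun k x => (Subgroup.mem_center_iff.1 (hc k.2) x).symm, Subtype.val_injective, fun a ha => ?_,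
      fun a b ha hb h1 h2 => ?_⟩
    · have hv : val (did a) = L a * L a := by simp [val, did]
      have hm : val (did a) ∈ π.ker := by
        rw [hv, MonoidHom.mem_ker, map_mul, hL a ha, goodF4.xg_add, two_eq_zero hF, goodF4.xg_zero]
      simp only [c, dif_pos hm]
      exact hv.symm
    · have e1 : uid b a < 2304 := by simp only [uid]; omega
      have e2 : uid b a / 48 = b := by simp only [uid]; omega
      have e3 : uid b a % 48 = a := by simp only [uid]; omega
      have hv : val (uid b a) = (L b * L a * ev L (wTab b a))⁻¹ * (L a * L b) := by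
        simp [val, e1, e2, e3]
      have hm : val (uid b a) ∈ π.ker := by
        rw [hv, MonoidHom.mem_ker, map_mul, map_inv, map_mul, map_mul, map_mul, hL a ha, hL b hb,
          hevπ b a hb ha (Ne.symm h1) (by omega), hswap b a hb ha (Ne.symm h1) (by omega), inv_mul_cancel]
      simp only [c, dif_pos hm]
      show L a * L b = L b * L a * ev L (wTab b a) * val (uid b a)
      rw [hv, mul_inv_cancel_left]
  let b : ℕ → π.ker := fun i => c (basisVar.getD i 0)
  have hk0 : ∀ a, known0.testBit a = true → c a = phi b (tTab a) := by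
    have h := chk_basis
    simp only [Bool.and_eq_true, List.all_eq_true, List.mem_range, beq_iff_eq] at h
    obtain ⟨⟨h1, h2⟩, h3⟩ := h
    intro a ha
    have key : ∀ (l : List ℕ) (k : ℕ), (l.foldl addKnown k).testBit a = true → k.testBit a = true ∨ a ∈ l := by
      intro l
      induction l with
      | nil => exact fun k h => Or.inl h
      | cons x l ih =>
        intro k h
        rcases ih _ h with h | h
        · rcases testBit_addKnown h with h | rfl
          · exact Or.inl h
          · exact Or.inr List.mem_cons_self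
        · exact Or.inr (List.mem_cons_of_mem _ h)
    rw [← h3] at ha
    rcases key _ _ ha with h | h
    · simp at h
    · obtain ⟨i, hi, rfl⟩ := List.getElem_of_mem h
      have e := h1 i (h2 ▸ hi)
      rw [List.getD_eq_getElem _ _ hi] at e
      simp [e, phi, b, List.getElem?_eq_getElem hi]
  have hk := R.elims_eq b elims8 _ _ chk_elims8 (R.elims_eq b elims7 _ _ chk_elims7
    (R.elims_eq b elims6 _ _ chk_elims6 (R.elims_eq b elims5 _ _ chk_elims5
    (R.elims_eq b elims4 _ _ chk_elims4 (R.elims_eq b elims3 _ _ chk_elims3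
    (R.elims_eq b elims2 _ _ chk_elims2 (R.elims_eq b elims1 _ _ chk_elims1 hk0)))))))
  have hz2 := R.relation_eq b chk_relation hk
  set z : π.ker := phi b zVec with hz
  have hzz : z * z = 1 := by
    rw [← hz2, hz]
    simp only [zVec, phi, List.map_cons, List.map_nil, List.prod_cons, List.prod_nil, mul_one,
      zpow_one, zpow_neg, zpow_ofNat, pow_two, pow_one, mul_inv]
    ac_rfl
  have hfin := chk_final
  have hg := chk_gauge
  simp only [List.all_eq_true, List.mem_range, Bool.or_eq_true, Bool.and_eq_true, okPair, bne_iff_ne,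
    Bool.not_eq_true', Bool.and_eq_false_iff, bne_eq_false_iff_eq] at hfin hg
  let M : ℕ → Γ := fun r => L r * ι (phi b (gaugeAt r))
  have hevM : ∀ w : List ℕ, ev M w = ev L w * ι (phi b (w.flatMap gaugeAt)) := by
    intro w
    induction w with
    | nil => simp [ev, phi]
    | cons a w ih =>
      rw [ev_cons, ev_cons, ih, List.flatMap_cons, phi_append, map_mul]
      show L a * ι _ * (ev L w * ι _) = _
      rw [mul_assoc, ← mul_assoc (ι _), (R.central _ (ev L w)).eq]
      simp only [mul_assoc]
  refine ⟨M, ι z, z.2, by rw [← map_mul, hzz, map_one], fun r hr => ?_, fun r hr => ?_,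
    fun r s hr hs h1 h2 => ?_⟩
  · show π (L r * ι _) = _
    rw [map_mul, hL r hr, show π (ι (phi b (gaugeAt r))) = 1 from (phi b (gaugeAt r)).2, mul_one]
  · obtain ⟨m, hm⟩ := phi_of_isMult b (hg r hr).1
    refine ⟨m, ?_⟩
    have hd := hk _ (hfin r hr).1
    show ι z ^ m = L r * ι _ * (L r * ι _)
    rw [← map_zpow, ← hm, fixedSq, phi_append, phi_append, ← hd, map_mul, map_mul, ← R.sq r hr,
      mul_assoc (L r) (ι _), ← mul_assoc (ι _) (L r), (R.central _ (L r)).eq]
    simp only [mul_assoc]
  · obtain ⟨m, hm⟩ := phi_of_isMult b (((hg r hr).2 s hs).resolve_left (by rintro (h | h) <;> omega))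
    refine ⟨ι z ^ m, ⟨m, rfl⟩, ?_⟩
    have hd := hk _ (((hfin r hr).2 s hs).resolve_left (by rintro (h | h) <;> omega))
    rw [hevM, ← map_zpow, ← hm, fixedErr, phi_append, phi_negV, ← hd]
    have hsw := R.swap s r hs hr (Ne.symm h1) (by omega)
    set g := phi b (gaugeAt r)
    set g' := phi b (gaugeAt s)
    set w := phi b ((wTab r s).flatMap gaugeAt)
    show L s * ι g' * (L r * ι g) = L r * ι g * (L s * ι g') * (ev L (wTab r s) * ι w) * ι (c (uid r s) * w⁻¹)
    have lhs : L s * ι g' * (L r * ι g) = L s * L r * ι (g' * g) := by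
      rw [map_mul, mul_assoc, ← mul_assoc (ι g'), (R.central g' (L r)).eq]
      simp only [mul_assoc]
    have rhs : L r * ι g * (L s * ι g') * (ev L (wTab r s) * ι w) * ι (c (uid r s) * w⁻¹) =
        L r * L s * ev L (wTab r s) * ι (g' * g * c (uid r s)) := by
      have e : g' * g * c (uid r s) = g * g' * w * (c (uid r s) * w⁻¹) := by
        rw [mul_comm g g', mul_assoc (g' * g) w, mul_comm w, inv_mul_cancel_right]
      rw [e, map_mul (f := ι) (g * g' * w), map_mul (f := ι) (g * g') w, map_mul (f := ι) g g',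
        mul_assoc (L r) (ι g), ← mul_assoc (ι g) (L s), (R.central g (L s)).eq, mul_assoc (L s) (ι g) (ι g')]
      simp only [← mul_assoc]
      rw [mul_assoc (L r * L s) (ι g) (ι g'), mul_assoc (L r * L s) (ι g * ι g') (ev L (wTab r s)),
        ← map_mul, (R.central (g * g') (ev L (wTab r s))).eq]
      rw [map_mul (f := ι) g g']
      simp only [mul_assoc]
    rw [lhs, rhs, hsw, mul_assoc _ (ι (c (uid r s))), ← map_mul, mul_comm (c (uid r s))]

end Ext

/-- A stem extension of `F₄(2)` has kernel of order at most two. -/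
theorem stem_le {F : Type*} [Field F] [Fintype F] (hF : Fintype.card F = 2) {Γ : Type*} [Group Γ]
    {σ : Γ →* ↥(chevF4.group F)} (hσ : Cfsg.IsStemExtension σ) : Nat.card σ.ker ≤ 2 := by
  classical
  have hD : chevF4 ∈ [chevG2, chevB2, chevD4, chevF4, chevE6, chevE7, chevE8] := by simp
  set P := groupPres goodF4 (F := F) with hP
  have hinj : Function.Injective P.θ := by
    rw [← MonoidHom.ker_eq_bot_iff, P.ker_eq_center (cert_of_mem hD)]
    exact center_eq_bot goodF4 (cert_of_mem hD) _ chkInv_small.2
  have hperfSt : commutator (chevF4.SteinbergGroup F) = ⊤ :=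
    Cfsg.Agent.H70.Steinberg.perfect_of_mem P hD fun h => absurd h (by simp [chevF4, chevB2, chevG2])
  have hperfG : commutator ↥(chevF4.group F) = ⊤ := by
    rw [← Cfsg.Agent.H82.map_commutator_of_surjective P.θ_surjective, hperfSt,
      Subgroup.map_top_of_surjective _ P.θ_surjective]
  have hperfΓ : commutator Γ = ⊤ := by
    rw [eq_top_iff]
    intro g _
    obtain ⟨d, hd, hd'⟩ : σ g ∈ (commutator Γ).map σ := by
      rw [Cfsg.Agent.H82.map_commutator_of_surjective hσ.1, hperfG]; exact Subgroup.mem_top _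
    have : d⁻¹ * g ∈ commutator Γ :=
      hσ.2.2 (by rw [MonoidHom.mem_ker, map_mul, map_inv, hd', inv_mul_cancel])
    simpa using mul_mem hd this
  set π : Γ →* GL chevF4.Idx F := (chevF4.group F).subtype.comp σ with hπ
  have hker : π.ker = σ.ker := MonoidHom.ker_comp_of_injective _ _ (Subgroup.subtype_injective _)
  choose L hL using fun r : ℕ => hσ.1 ⟨_, goodF4.xg_mem_group (F := F) r 1⟩
  obtain ⟨M, z, hzk, hz2, hM, hsq, hcomm⟩ := exists_fixed_lifts hF (π := π) (hker ▸ hσ.2.1) L
    fun r _ => congrArg Subtype.val (hL r)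
  rw [hker] at hzk
  set Z := Subgroup.zpowers z
  have hZc : Z ≤ Subgroup.center Γ := Subgroup.zpowers_le.2 (hσ.2.1 hzk)
  haveI : Z.Normal := ⟨fun x hx g => by
    rw [(Subgroup.mem_center_iff.1 (hZc hx) g), mul_inv_cancel_right]; exact hx⟩
  let q := QuotientGroup.mk' Z
  let σ' : Γ ⧸ Z →* ↥(chevF4.group F) := QuotientGroup.lift Z σ (Subgroup.zpowers_le.2 hzk)
  let f : ℕ → F → Γ ⧸ Z := fun r t => if t = 0 then 1 else q (M r)
  have hf0 : ∀ r, f r 0 = 1 := fun r => by simp [f]
  have hf1 : ∀ r, f r 1 = q (M r) := fun r => by simp [f]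
  have hadd : ∀ r, r < 48 → ∀ t u : F, f r t * f r u = f r (t + u) := by
    intro r hr t u
    rcases eq_zero_or_one hF t with rfl | rfl
    · rw [hf0, zero_add, one_mul]
    rcases eq_zero_or_one hF u with rfl | rfl
    · rw [hf0, add_zero, mul_one]
    rw [two_eq_zero hF, hf0, hf1, ← map_mul, QuotientGroup.mk'_apply, QuotientGroup.eq_one_iff]
    exact hsq r hr
  have hcw : ∀ r s, r < 48 → s < 48 → s ≠ r → s ≠ chevF4.neg r → ∀ t u : F,
      f s u * f r t = f r t * f s u * ((chevF4.commWord F r s t u).map fun x => f x.1 x.2).prod := by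
    intro r s hr hs h1 h2 t u
    have h2' : r + s ≠ 47 := fun e => h2 (by rw [neg_spec hr]; omega)
    obtain ⟨hw, hij, -⟩ := word_spec hr hs (Ne.symm h1) h2'
    by_cases htu : t = 0 ∨ u = 0
    · have hone : ((chevF4.commWord F r s t u).map fun x => f x.1 x.2).prod = 1 := by
        refine List.prod_eq_one fun y hy => ?_
        simp only [ChevalleyDatum.commWord, List.map_map, List.mem_map, Function.comp_apply] at hy
        obtain ⟨c, hc, rfl⟩ := hy
        have := hij c hc
        rcases htu with rfl | rfl <;> simp [this.1, this.2, hf0]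
      rw [hone, mul_one]
      rcases htu with rfl | rfl <;> simp [hf0]
    · simp only [not_or] at htu
      rw [(eq_zero_or_one hF t).resolve_left htu.1, (eq_zero_or_one hF u).resolve_left htu.2,
        prod_commWord hF f hf0, ← hw]
      obtain ⟨k, hk, e⟩ := hcomm r s hr hs (Ne.symm h1) h2'
      simp only [hf1, ← map_mul]
      rw [show ((wTab r s).map fun k => q (M k)).prod = q (ev M (wTab r s)) by
        rw [ev, map_list_prod, List.map_map]; rfl, ← map_mul, e, map_mul _ _ k,
        show q k = 1 from (QuotientGroup.eq_one_iff k).2 hk, mul_one]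
  set fi : Fin chevF4.nroots × F → Γ ⧸ Z := fun p => f p.1.val p.2 with hfi
  have hX : ∀ {r : ℕ}, r < chevF4.nroots → ∀ t : F, FreeGroup.lift fi (chevF4.stX r t) = f r t :=
    fun hr t => by simp [ChevalleyDatum.stX, hr, hfi]
  have hn : chevF4.nroots = 48 := by decide +kernel
  have hrels : ∀ g ∈ chevF4.steinbergRelsAB F, FreeGroup.lift fi g = 1 := by
    rintro g (⟨r, t, u, hr, rfl⟩ | ⟨r, s, t, u, hr, hs, h1, h2, rfl⟩)
    · rw [map_mul, map_mul, map_inv, hX hr, hX hr, hX hr, hadd r (hn ▸ hr), mul_inv_cancel]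
    · have hw : FreeGroup.lift fi (chevF4.stWord (chevF4.commWord F r s t u)) =
          ((chevF4.commWord F r s t u).map fun x => f x.1 x.2).prod := by
        rw [ChevalleyDatum.stWord, map_list_prod, List.map_map]
        exact congrArg List.prod (List.map_congr_left fun p hp =>
          hX (Cfsg.Agent.H70.Steinberg.commWord_lt goodF4 hr hs t u p hp) p.2)
      simp only [map_mul, map_inv, hX hr, hX hs, hw]
      rw [mul_assoc (_ * _) (f s u) (f r t), hcw r s (hn ▸ hr) (hn ▸ hs) h1 h2]
      group
  obtain ⟨e, he⟩ := Cfsg.Agent.H70.Steinberg.exists_equiv goodF4 (F := F) (cert_of_mem hD)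
  let τ : chevF4.SteinbergGroup F →* Γ ⧸ Z := (PresentedGroup.toGroup hrels).comp e.symm.toMonoidHom
  have hτθ : σ'.comp τ = P.θ := P.hom_ext fun r hr t => by
    have hτX : τ (P.X r t) = f r t := by
      show PresentedGroup.toGroup hrels (e.symm (chevF4.stGen F r t)) = _
      rw [← he r t, MulEquiv.symm_apply_apply]
      exact hX hr t
    rw [MonoidHom.comp_apply, hτX]
    refine Subtype.ext ?_
    rw [show (P.θ (P.X r t) : GL chevF4.Idx F) = goodF4.xg r t from P.π_X r hr t]
    rcases eq_zero_or_one hF t with rfl | rfl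
    · rw [hf0, map_one, goodF4.xg_zero]; rfl
    · rw [hf1]; exact hM r (hn ▸ hr)
  have hcen' : σ'.ker ≤ Subgroup.center (Γ ⧸ Z) := by
    intro x hx
    obtain ⟨x, rfl⟩ := QuotientGroup.mk'_surjective Z x
    refine Subgroup.mem_center_iff.2 fun y => ?_
    obtain ⟨y, rfl⟩ := QuotientGroup.mk'_surjective Z y
    rw [← map_mul, ← map_mul, Subgroup.mem_center_iff.1 (hσ.2.1 hx) y]
  have htop : τ.range = ⊤ := by
    rw [eq_top_iff]
    refine le_trans ?_ ((Cfsg.Agent.H82.commutator_le_of_forall_exists_center τ.range fun x => ?_).trans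
      (Subgroup.commutator_le_self _))
    · rw [← Cfsg.Agent.H82.map_commutator_of_surjective (QuotientGroup.mk'_surjective Z), hperfΓ,
        Subgroup.map_top_of_surjective _ (QuotientGroup.mk'_surjective Z)]
    · obtain ⟨y, hy⟩ := P.θ_surjective (σ' x)
      refine ⟨τ y, ⟨y, rfl⟩, hcen' ?_⟩
      rw [MonoidHom.mem_ker, map_mul, map_inv, show σ' (τ y) = P.θ y from DFunLike.congr_fun hτθ y, hy,
        inv_mul_cancel]
  have hle : σ.ker ≤ Z := by
    intro x hx
    obtain ⟨y, hy⟩ : q x ∈ τ.range := by rw [htop]; exact Subgroup.mem_top _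
    have h1 : P.θ y = 1 := by
      rw [← DFunLike.congr_fun hτθ y, MonoidHom.comp_apply, hy]
      exact hx
    rw [← map_one P.θ] at h1
    rw [hinj h1, map_one] at hy
    exact (QuotientGroup.eq_one_iff x).1 hy.symm
  have ho : IsOfFinOrder z := isOfFinOrder_iff_pow_eq_one.2 ⟨2, by norm_num, by rw [pow_two, hz2]⟩
  haveI : Finite Z := (IsOfFinOrder.finite_zpowers ho).to_subtype
  refine (Nat.card_le_card_of_injective _ (Subgroup.inclusion_injective hle)).trans ?_
  rw [Nat.card_zpowers]
  exact orderOf_le_of_pow_eq_one (by norm_num) (by rw [pow_two, hz2])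

end Cfsg.Agent.H46.F4Two
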